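import Cfsg.Agent.Known.Co3Up

/-! The Schur multiplier of the model of Co3 (generated certificate, helper25): `mult`. -/

set_option maxRecDepth 100000
set_option exponentiation.threshold 100000

namespace Cfsg.Agent.Known.Co3T

open Cfsg.Agent.Spor

theorem mult : HasCyclicSchurMultiplier Co3P.G 1 :=
  cyc_one_of_bnd sb

end Cfsg.Agent.Known.Co3T
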