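import Cfsg.Agent.Known.SchurModel
import Cfsg.Agent.Known.CovM
import Cfsg.Agent.TwM.Root
import Mathlib.GroupTheory.Transfer

/-! Lower bounds for Schur multipliers by corestriction (helper25): `MDvd.of_inv`, `MDvd.of_stab` (a central extension
of a subgroup of odd index whose commutator pairing is stable under conjugation); passing to a central
quotient: `schur_cover`; `sbnd_of_odd`. -/

set_option autoImplicit false

namespace Cfsg.Agent.Known

open Subgroup MulAction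
open scoped commutatorElement IsMulCommutative

universe u

theorem MDvd.of_inv {W A : Type*} {G : Type u} [Group W] [Group G] [CommGroup A] (p : W →* G)
    (hp : Function.Surjective p) (S : p.ker →* A)
    (hS : ∀ (v : W) (w w' : p.ker), (w' : W) = v * w * v⁻¹ → S w' = S w) {L : Set A}
    (hL : ∀ z ∈ L, ∃ w : p.ker, (w : W) ∈ commutator W ∧ S w = z) : MDvd G (Nat.card (closure L)) := by
  let K : Subgroup W := S.ker.map p.ker.subtype
  haveI : K.Normal := ⟨by
    rintro _ ⟨w, hw, rfl⟩ v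
    exact ⟨⟨_, (MonoidHom.normal_ker p).conj_mem _ w.2 v⟩, (hS v w _ rfl).trans hw, rfl⟩⟩
  let ξ : W ⧸ K →* G := QuotientGroup.lift K p (map_subtype_le _)
  have hc : ξ.ker ≤ center _ := fun x hx => by
    obtain ⟨x, rfl⟩ := QuotientGroup.mk_surjective x
    refine mem_center_iff.2 fun y => ?_
    obtain ⟨y, rfl⟩ := QuotientGroup.mk_surjective y
    have hx : x ∈ p.ker := hx
    refine (QuotientGroup.eq (a := y * x) (b := x * y)).2
      ⟨⟨x, hx⟩⁻¹ * ⟨_, (MonoidHom.normal_ker p).conj_mem _ hx y⁻¹⟩, ?_, by simp [mul_assoc]⟩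
    rw [SetLike.mem_coe, MonoidHom.mem_ker, map_mul, map_inv, hS y⁻¹ ⟨x, hx⟩ ⟨y⁻¹ * x * y⁻¹⁻¹, _⟩ rfl, inv_mul_cancel]
  let N : Subgroup p.ker := (commutator W).comap p.ker.subtype
  let f : N →* W ⧸ K := (QuotientGroup.mk' K).comp (p.ker.subtype.comp N.subtype)
  refine MDvd.of_ext (ξ := ξ) ⟨fun g => (hp g).elim fun w e => ⟨w, e⟩, hc⟩ (H := f.range) ?_ ?_
  · rintro _ ⟨w, rfl⟩
    have := mem_map_of_mem (QuotientGroup.mk' K) (mem_comap.1 w.2)
    rw [map_commutator_eq] at this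
    exact ⟨w.1.2, commutator_mono le_top le_top this⟩
  · have e : f.ker = (S.comp N.subtype).ker := by
      ext w
      exact (QuotientGroup.eq_one_iff _).trans ⟨fun ⟨v, a, b⟩ => by obtain rfl : v = w := Subtype.ext b; exact a, fun a => ⟨w, a, rfl⟩⟩
    rw [← index_ker, e, index_ker]
    exact card_dvd_of_le ((closure_le _).2 fun z hz => (hL z hz).elim fun w h => ⟨⟨w, h.1⟩, h.2⟩)

theorem prod_eq_one_of_orbits {G A : Type*} [Group G] [Finite G] [CommGroup A] (H : Subgroup G) [Fintype (G ⧸ H)]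
    (b : G) (T : G ⧸ H → A) (h : ∀ x k, b ^ k • x = x → ∏ i ∈ Finset.range k, T (b ^ i • x) = 1) :
    ∏ x, T x = 1 := by
  classical
  have := Fintype.ofFinite (orbitRel.Quotient (zpowers b) (G ⧸ H))
  rw [← (H.quotientEquivSigmaZMod b).symm.prod_comp, Finset.univ_sigma_univ.symm, Finset.prod_sigma]
  refine Finset.prod_eq_one fun q _ => ?_
  rw [← h q.out _ (pow_smul_eq_iff_minimalPeriod_dvd.2 dvd_rfl)]
  simp only [quotientEquivSigmaZMod_symm_apply]
  refine Finset.prod_bij (fun k _ => k.val) (fun k _ => Finset.mem_range.2 k.val_lt)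
    (fun _ _ _ _ e => ZMod.val_injective _ e) (fun i hi => ⟨i, Finset.mem_univ _, ZMod.val_cast_of_lt
      (Finset.mem_range.1 hi)⟩) fun k _ => by rw [ZMod.cast_eq_val, zpow_natCast]

section cor
variable {G E : Type*} [Group G] [Group E] (π : E →* G)

/-- the component of `g` at the coset `x`. -/
noncomputable def cc (g : G) (x : G ⧸ π.range) : G := (g • x).out⁻¹ * g * x.out

theorem cc_mem (g : G) (x : G ⧸ π.range) : cc π g x ∈ π.range := by
  rw [cc, mul_assoc, ← QuotientGroup.eq, QuotientGroup.out_eq', ← smul_eq_mul, Quotient.coe_smul_out]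

theorem cc_mul (g h : G) (x : G ⧸ π.range) : cc π (g * h) x = cc π g (h • x) * cc π h x := by
  simp [cc, mul_smul, mul_assoc]

/-- the induced extension. -/
@[ext] structure Ind where
  g : G
  σ : G ⧸ π.range → E
  h : ∀ x, π (σ x) = cc π g x

instance instMulInd : Mul (Ind π) :=
  ⟨fun v w => ⟨v.g * w.g, fun x => v.σ (w.g • x) * w.σ x, fun x => by rw [map_mul, v.h, w.h, cc_mul]⟩⟩
instance instOneInd : One (Ind π) := ⟨⟨1, fun _ => 1, fun x => by simp [cc]⟩⟩
instance instInvInd : Inv (Ind π) :=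
  ⟨fun w => ⟨w.g⁻¹, fun x => (w.σ (w.g⁻¹ • x))⁻¹, fun x => by simp [w.h, cc, mul_assoc]⟩⟩

@[simp] theorem Ind.mul_g (v w : Ind π) : (v * w).g = v.g * w.g := rfl
@[simp] theorem Ind.mul_σ (v w : Ind π) (x) : (v * w).σ x = v.σ (w.g • x) * w.σ x := rfl
@[simp] theorem Ind.one_g : (1 : Ind π).g = 1 := rfl
@[simp] theorem Ind.one_σ (x) : (1 : Ind π).σ x = 1 := rfl
@[simp] theorem Ind.inv_g (w : Ind π) : w⁻¹.g = w.g⁻¹ := rfl
@[simp] theorem Ind.inv_σ (w : Ind π) (x) : w⁻¹.σ x = (w.σ (w.g⁻¹ • x))⁻¹ := rfl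

instance instGroupInd : Group (Ind π) := Group.ofLeftAxioms
  (fun _ _ _ => Ind.ext (mul_assoc _ _ _) (funext fun x => by simp [mul_smul, mul_assoc]))
  (fun _ => Ind.ext (one_mul _) (funext fun x => by simp)) fun _ => Ind.ext (inv_mul_cancel _) (funext fun x => by simp)

/-- the projection. -/
def Ind.p : Ind π →* G := MonoidHom.mk' Ind.g fun _ _ => rfl

/-- the commutator pairing is stable under `g`. -/
def Stab (g : G) : Prop := ∀ u v u' v' : E, Commute (π u) (π v) → π u' = g * π u * g⁻¹ → π v' = g * π v * g⁻¹ →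
  ⁅u', v'⁆ = ⁅u, v⁆

variable {π}

theorem Ind.σ_mem (hc : π.ker ≤ center E) {w : Ind π} (hw : w.g = 1) (x) : w.σ x ∈ center E :=
  hc (by simp [MonoidHom.mem_ker, w.h, cc, hw])

theorem Ind.pow_σ (w : Ind π) (k : ℕ) : (w ^ k).g = w.g ^ k := map_pow (Ind.p π) w k

theorem MDvd.of_stab {G : Type u} [Group G] [Finite G] {π : E →* G} (hc : π.ker ≤ center E)
    (hi : Odd π.range.index) (hs : ∀ g, Stab π g) {L : Set (center E)}
    (hL : ∀ z ∈ L, z * z = 1 ∧ ∃ a b : E, π a * π a = 1 ∧ ⁅a, b⁆ = z ∧ π z = 1) : MDvd G (Nat.card (closure L)) := by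
  classical
  have := Fintype.ofFinite (G ⧸ π.range)
  choose s hs' using fun g x => cc_mem π g x
  let S : (Ind.p π).ker →* center E := MonoidHom.mk' (fun w => ∏ x, ⟨w.1.σ x, Ind.σ_mem hc w.2 x⟩) fun v w => by
    rw [← Finset.prod_mul_distrib]
    exact Finset.prod_congr rfl fun x _ => Subtype.ext (by simp [show w.1.g = 1 from w.2])
  refine MDvd.of_inv (Ind.p π) (fun g => ⟨⟨g, s g, hs' g⟩, rfl⟩) S (fun v w w' e => ?_) fun z hz => ?_
  · refine Fintype.prod_equiv (toPerm v.g⁻¹) _ _ fun x => Subtype.ext ?_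
    simp [e, show w.1.g = 1 from w.2, mem_center_iff.1 (Ind.σ_mem hc w.2 _)]
  obtain ⟨z2, a, b, ha, e, hz1⟩ := hL z hz
  have hab : Commute (π a) (π b) := by rw [← commutatorElement_eq_one_iff_commute, ← map_commutatorElement, e, hz1]
  let o := LinearOrder.lift' _ (Fintype.equivFin (G ⧸ π.range)).injective
  have aa : ∀ x : G ⧸ π.range, π a • π a • x = x := fun x => by rw [← mul_smul, ha, one_smul]
  let A : Ind π := ⟨π a, fun x => if x < π a • x then s (π a) x else (s (π a) (π a • x))⁻¹, fun x => by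
    split_ifs
    · exact hs' _ _
    · rw [map_inv, hs', inv_eq_iff_mul_eq_one, ← cc_mul, ha]; simp [cc]⟩
  have hA : ∀ x, π a • x ≠ x → A.σ (π a • x) = (A.σ x)⁻¹ := fun x hx => by
    simp only [A, aa]
    rcases hx.lt_or_gt with h | h
    · rw [if_pos h, if_neg h.not_gt, inv_inv]
    · rw [if_neg h.not_gt, if_pos h]
  let B : Ind π := ⟨π b, s (π b), hs' _⟩
  have hD : ⁅A⁻¹, B⁻¹⁆ ∈ (Ind.p π).ker := by
    rw [MonoidHom.mem_ker, map_commutatorElement, map_inv, map_inv, commutatorElement_eq_one_iff_commute]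
    exact hab.inv_inv
  let T : G ⧸ π.range → center E := fun x => ⟨⁅A⁻¹, B⁻¹⁆.σ x, Ind.σ_mem hc (w := ⁅A⁻¹, B⁻¹⁆) hD x⟩
  have hT : ∀ x, A.σ (π b • x) * B.σ x = B.σ (π a • x) * A.σ x * T x := fun x => by
    have : A * B = B * A * ⁅A⁻¹, B⁻¹⁆ := by rw [commutatorElement_def]; group
    simpa [show ⁅A⁻¹, B⁻¹⁆.g = 1 from hD] using congrArg (·.σ x) this
  have ba : ∀ k (x : G ⧸ π.range), π a • π b ^ k • x = π b ^ k • π a • x := fun k x => by
    rw [← mul_smul, ← mul_smul, (hab.pow_right k).eq]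
  have h1 : ∀ x, π a • x ≠ x → T x * T (π a • x) = 1 := fun x hx => by
    have e1 := hT x
    have e2 := hT (π a • x)
    have e3 := ba 1 x
    rw [pow_one] at e3
    rw [← e3, aa, hA _ hx, hA _ fun e => hx (by simpa [e3] using e), inv_mul_eq_iff_eq_mul, ← mul_assoc, ← mul_assoc,
      e1, ← cent (T x), mul_assoc (T x : E), mul_assoc (B.σ _), mul_inv_cancel, mul_one, cent, mul_assoc,
      left_eq_mul] at e2
    exact Subtype.ext e2
  have h2 : ∀ x, π a • x = x → ∀ k, A.σ (π b ^ k • x) * (B ^ k).σ x =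
      (B ^ k).σ x * A.σ x * (∏ i ∈ Finset.range k, T (π b ^ i • x) : center E) := fun x hx k => by
    induction k with
    | zero => simp
    | succ k ih =>
      rw [pow_succ', pow_succ', mul_smul, Ind.mul_σ, Ind.pow_σ, ← mul_assoc, hT, ba, hx, mul_assoc, cent, ← mul_assoc,
        mul_assoc (B.σ _), ih, Finset.prod_range_succ]
      simp [mul_assoc, B]
  have h3 : ∀ k, ⁅a, b ^ k⁆ = (z ^ k : center E) := fun k => by
    induction k with
    | zero => simp
    | succ k ih => rw [pow_succ, commutatorElement_mul_right_eq_mul_conj, ih, e, mul_assoc, mul_assoc, cent z, mul_inv_cancel_left]; simp [pow_succ]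
  have h4 : ∀ x k, π a • x = x → π b ^ k • x = x → ∏ i ∈ Finset.range k, T (π b ^ i • x) = z ^ k := fun x k hx hk => by
    have e1 := h2 x hx k
    rw [hk, ← cent, ← mul_inv_eq_iff_eq_mul, mul_inv_rev, ← mul_assoc, ← commutatorElement_def,
      hs x.out⁻¹ a (b ^ k) _ _ (by rw [map_pow]; exact hab.pow_right k) (by rw [A.h, cc, hx, inv_inv])
        (by rw [(B ^ k).h, cc, Ind.pow_σ, hk, inv_inv, map_pow]), h3] at e1
    exact (Subtype.ext e1).symm
  refine ⟨⟨_, hD⟩, commutator_mem_commutator trivial trivial, ?_⟩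
  have h5 := prod_eq_one_of_orbits π.range (π b) (fun x => if π a • x = x then T x * z else 1) fun x k hk => by
    by_cases hx : π a • x = x
    · simp only [ba, hx, if_true, Finset.prod_mul_distrib, h4 x k hx hk, Finset.prod_const, Finset.card_range]
      rw [← mul_pow, z2, one_pow]
    · simp [ba, hx]
  have h6 : ∏ x, (if π a • x = x then 1 else T x * z) = 1 := Finset.prod_involution (fun x _ => π a • x)
    (fun x _ => by
      by_cases hx : π a • x = x
      · simp [hx]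
      · rw [if_neg hx, if_neg (by rw [aa]; exact Ne.symm hx), mul_mul_mul_comm, h1 x hx, z2, mul_one])
    (fun x _ h e => h (if_pos e)) (fun _ _ => Finset.mem_univ _) fun x _ => aa x
  obtain ⟨m, hm⟩ := hi
  have h7 : ∏ x, T x * z = 1 := by
    have := congrArg₂ (· * ·) h5 h6
    rw [mul_one, ← Finset.prod_mul_distrib] at this
    exact (Finset.prod_congr rfl fun x _ => by split_ifs <;> simp).trans this
  rw [Finset.prod_mul_distrib, Finset.prod_const, Finset.card_univ, ← Nat.card_eq_fintype_card, ← index_eq_card, hm,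
    pow_succ, pow_mul, sq, z2, one_pow, one_mul] at h7
  exact mul_right_cancel (h7.trans z2.symm)

end cor

theorem schur_cover {C G : Type u} [Group C] [Group G] [Finite C] (hC : Group.IsPerfect C) {σ : C →* G}
    (hσ : Schur.IsCentralExt σ) (h3 : Nat.card σ.ker = 3) (up : SBnd C 1 [2, 2]) (low : MDvd C (2 * 2)) :
    HasSchurMultiplier G (Multiplicative (ZMod 3 × ZMod 2 × ZMod 2)) := by
  have H := schur2_of_bnd up low
  obtain ⟨Δ, _, _, τ, hτ, ⟨e⟩⟩ := H.1
  have : Finite G := .of_surjective σ hσ.surj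
  have h4 : Nat.card τ.ker = 4 := by rw [Nat.card_congr e.toEquiv]; simp
  have hs : IsStemExtension σ := ⟨hσ.surj, hσ.central, Group.isPerfect_def.1 hC ▸ le_top⟩
  have h5 := isStem_comp (Group.IsPerfect.ofSurjective hσ.surj) hs hτ
  have hΔ : HasCyclicSchurMultiplier Δ 1 := Schur.hasCyclicSchurMultiplier_one_iff.2 fun E _ _ ρ hρ => by
    obtain ⟨f, hf⟩ := H.2 E _ (isStem_comp hC hτ hρ)
    let g : (τ.comp ρ).ker →* τ.ker := (ρ.comp (Subgroup.subtype _)).codRestrict _ fun x => x.2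
    have hg : Function.Surjective g := fun y => (hρ.1 y).elim fun x e =>
      ⟨⟨x, show τ (ρ x) = 1 from e ▸ y.2⟩, Subtype.ext e⟩
    refine eq_bot_iff.2 fun z hz => congrArg Subtype.val ((injective_iff_map_eq_one g).1 (hg.bijective_of_nat_card_le
      ((Nat.card_le_card_of_surjective f hf).trans (by rw [h4]; simp))).1 ⟨z, show τ (ρ z) = 1 by rw [hz, map_one]⟩
      (Subtype.ext hz))
  haveI := Schur.isMulCommutative_of_le_center h5.2.1
  have K := TwM.hasSchur_of_cover hΔ (Group.isPerfect_def.1 (Schur.isPerfect_of_stem hC hτ))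
    (Schur.isCentralExt_of_stem h5) (MulEquiv.refl _)
  have B : Bnd (σ.comp τ).ker 1 [3, 2, 2] := by
    obtain ⟨cs, h1, h2⟩ := up Δ τ hτ
    haveI := isCyclic_of_prime_card (p := 3) h3
    obtain ⟨ζ, hζ⟩ := IsCyclic.exists_generator (α := σ.ker)
    obtain ⟨m, hm⟩ := hτ.1 ζ
    have z3 : (ζ : C) ^ 3 = 1 := congrArg Subtype.val (h3 ▸ pow_card_eq_one' (x := ζ))
    have z4 : τ (m ^ 4) = ζ := by rw [map_pow, hm, pow_succ, z3, one_mul]
    refine ⟨m ^ 4 :: cs, .cons ⟨show σ (τ _) = 1 from z4 ▸ ζ.2, ?_⟩ (h1.imp fun c o h =>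
      ⟨show σ (τ c) = 1 by rw [h.1, map_one], h.2⟩), fun z hz => ?_⟩
    · rw [← pow_mul, mul_comm, pow_mul, ← h4]
      exact congrArg Subtype.val (pow_card_eq_one' (x := (⟨m ^ 3, show τ _ = 1 by rw [map_pow, hm, z3]⟩ : τ.ker)))
    · obtain ⟨k, hk⟩ := hζ ⟨τ z, hz⟩
      have := h2 (((m ^ 4) ^ k)⁻¹ * z) (show τ _ = 1 by
        rw [map_mul, map_inv, map_zpow, z4, inv_mul_eq_one]; exact congrArg Subtype.val hk)
      rw [pow_one] at this ⊢
      rw [← mul_inv_cancel_left ((m ^ 4) ^ k) z]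
      exact mul_mem (zpow_mem (Subgroup.subset_closure (by simp)) k)
        (Subgroup.closure_mono (fun c hc => List.mem_cons_of_mem _ hc) this)
  refine hasSchur_of (fun Γ _ ρ hρ => ?_) ?_
  · haveI : Finite ρ.ker := Schur.mul_eq_ker_of_stem hρ ▸ Schur.finite_mul hρ.2.1
    haveI : Finite Γ := Schur.finite_of_finite_ker ρ
    obtain ⟨f, hf⟩ := K.2 Γ ρ hρ
    obtain ⟨g, hg⟩ := B.surj3 h5.2.1
    exact ⟨f.comp g, hf.comp hg⟩
  · simpa using (MDvd.of_ext hσ (Schur.mul_eq_ker_of_stem hs).ge h3.symm.dvd).mul (MDvd.of_ext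
      (Schur.isCentralExt_of_stem h5) (H := τ.ker) ((Schur.mul_eq_ker_of_stem h5).symm ▸ fun z hz =>
        show σ (τ z) = 1 by rw [hz, map_one]) h4.symm.dvd) (by decide)

/-- if stem extensions with a kernel of odd order are trivial, all kernels are `2`-groups. -/
theorem sbnd_of_odd {G : Type u} [Group G] [Finite G] {u m : ℕ} (h0 : Nat.card G = u * m) (hm : Odd m)
    (H : ∀ (Γ : Type u) [Group Γ] [Finite Γ] (σ : Γ →* G), IsStemExtension σ → ¬ 2 ∣ Nat.card σ.ker → σ.ker = ⊥) :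
    SBnd G u [] := fun Γ _ σ hσ => by
  haveI : Finite σ.ker := Schur.mul_eq_ker_of_stem hσ ▸ Schur.finite_mul hσ.2.1
  haveI : Finite Γ := Schur.finite_of_finite_ker σ
  obtain ⟨cs, h1, h2⟩ := Bnd.of_cyclic hσ 1 orderOf_one (by rw [one_mul, h0])
  cases h1
  let Z : Subgroup Γ :=
    { carrier := {z | z ∈ σ.ker ∧ z ^ u = 1}
      one_mem' := ⟨one_mem _, one_pow _⟩
      mul_mem' := fun {x y} hx hy => ⟨mul_mem hx.1 hy.1, by
        rw [Commute.mul_pow (mem_center_iff.1 (hσ.2.1 hy.1) x), hx.2, hy.2, one_mul]⟩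
      inv_mem' := fun hx => ⟨inv_mem hx.1, by rw [inv_pow, hx.2, inv_one]⟩ }
  haveI : Z.Normal := Schur.normal_of_le_center fun _ h => hσ.2.1 h.1
  have h3 := Schur.isStem_quotExt (Schur.isCentralExt_of_stem hσ) Z (fun _ h => h.1) fun r hr =>
    ⟨1, one_mem _, by simpa using hσ.2.2 hr⟩
  refine ⟨[], .nil, fun z hz => ?_⟩
  have h4 := (H _ _ h3 fun e => ?_).le (show (z : Γ ⧸ Z) ∈ _ from hz)
  · rw [((QuotientGroup.eq_one_iff z).1 h4).2]; exact one_mem _
  obtain ⟨⟨x, hx⟩, e⟩ := exists_prime_orderOf_dvd_card' 2 e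
  obtain ⟨x, rfl⟩ := QuotientGroup.mk_surjective x
  refine hm.not_two_dvd_nat (e ▸ orderOf_dvd_of_pow_eq_one (Subtype.ext ((QuotientGroup.eq_one_iff (x ^ m)).2
    ⟨pow_mem hx m, ?_⟩)))
  rw [← pow_mul, mul_comm]
  simpa using h2 x hx

end Cfsg.Agent.Known
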