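import Cfsg.Agent.Known.Cor

/-! Stability of a commutator pairing (helper25): `StabOn`, `stabOn_of_tail` (from two solutions of the same pc relations
with tails), `stab_of_fold` (Bruhat decomposition of a twisted group), `PcData.Rel.W_eq` (collection). -/

set_option autoImplicit false

namespace Cfsg.Agent.Known

open Subgroup Cfsg.Lie Cfsg.Agent.Chev Cfsg.Agent.Chev.Sys
open scoped commutatorElement IsMulCommutative

variable {G E : Type*} [Group G] [Group E] {π : E →* G}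

variable (π) in
/-- the commutator pairing on `A` is stable under `g`. -/
def StabOn (A : Subgroup G) (g : G) : Prop := ∀ u v u' v' : E, π u ∈ A → π v ∈ A → Commute (π u) (π v) →
  π u' = g * π u * g⁻¹ → π v' = g * π v * g⁻¹ → ⁅u', v'⁆ = ⁅u, v⁆

theorem comm_congr (hc : π.ker ≤ center E) {a a' b b' : E} (h1 : π a = π a') (h2 : π b = π b') : ⁅a, b⁆ = ⁅a', b'⁆ := by
  rw [← Schur.commutatorElement_mul_central (x := a) (y := b) (hc (show π (a⁻¹ * a') = 1 by simp [h1]))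
    (hc (show π (b⁻¹ * b') = 1 by simp [h2])), mul_inv_cancel_left, mul_inv_cancel_left]

theorem Stab.mul {g g' : G} {A : Subgroup G} (h : Stab π g) (h' : StabOn π A g')
    (H : ∀ a ∈ π.range, g * g' * a * (g * g')⁻¹ ∈ π.range → a ∈ A ∧ g' * a * g'⁻¹ ∈ π.range) : Stab π (g * g') :=
  fun u v u' v' e e1 e2 => by
    obtain ⟨a1, p, a2⟩ := H _ ⟨u, rfl⟩ ⟨u', e1⟩
    obtain ⟨b1, q, b2⟩ := H _ ⟨v, rfl⟩ ⟨v', e2⟩
    rw [h p q u' v' (by rw [a2, b2]; exact (Commute.conj_iff _).2 e) (by rw [e1, a2]; group) (by rw [e2, b2]; group),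
      h' u v p q a1 b1 e a2 b2]

theorem Stab.on {g : G} (h : Stab π g) (A : Subgroup G) : StabOn π A g := fun u v u' v' _ _ => h u v u' v'

theorem stab_range (hc : π.ker ≤ center E) (w : E) : Stab π (π w) := fun u v u' v' e e1 e2 => by
  rw [comm_congr hc (a' := w * u * w⁻¹) (b' := w * v * w⁻¹) (by simp [e1]) (by simp [e2]), ← conjugate_commutatorElement,
    mem_center_iff.1 (hc (show π ⁅u, v⁆ = 1 by rwa [map_commutatorElement, commutatorElement_eq_one_iff_commute])),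
    mul_inv_cancel_right]

theorem stabOn_of_tail (hc : π.ker ≤ center E) {D : PcData} (hD : D.ok = true) {y y' : ℕ → E} {t : ℕ → center E}
    (h : D.Tail y t) (h' : D.Tail y' t) (ht : ∀ r, π (t r) = 1) {g : G} (hg : ∀ j < D.n, π (y' j) = g * π (y j) * g⁻¹)
    {A : Subgroup G} [Finite G] (hA : A ≤ closure ((fun i => π (y i)) '' {i | i < D.n}))
    (hP : (D.pm + 1) ^ D.n ≤ Nat.card A) : StabOn π A g := fun u v u' v' hu hv e e1 e2 => by
  let Y : ℕ → E × E := fun i => (y i, y' i)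
  have hW : ∀ l, W Y l = (W y l, W y' l) := fun l => Prod.ext (map_W Y (MonoidHom.fst _ _) l) (map_W Y (MonoidHom.snd _ _) l)
  let T : ℕ → center (E × E) := fun r => ⟨(t r, t r), mem_center_iff.2 fun _ => Prod.ext (cent _ _).symm (cent _ _).symm⟩
  have hT : D.Tail Y T := ⟨fun i hi => by rw [hW]; exact Prod.ext (h.pow i hi) (h'.pow i hi),
    fun j hj i hi => by rw [hW]; exact Prod.ext (h.conj j hj i hi) (h'.conj j hj i hi), fun k hk => by
      rw [hW, hW]; exact Prod.ext (h.fus k hk) (h'.fus k hk)⟩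
  have k : ∀ a ∈ A, ∃ p ∈ closure (Y '' {i | i < D.n}), π p.1 = a ∧ π p.2 = g * a * g⁻¹ := fun a ha => by
    refine closure_induction (p := fun a _ => ∃ p ∈ closure (Y '' {i | i < D.n}), π p.1 = a ∧ π p.2 = g * a * g⁻¹) ?_
      ⟨1, one_mem _, by simp⟩ ?_ ?_ (hA ha)
    · rintro _ ⟨i, hi, rfl⟩
      exact ⟨_, subset_closure ⟨i, hi, rfl⟩, rfl, hg i hi⟩
    · rintro _ _ _ _ ⟨p, a1, rfl, a2⟩ ⟨q, b1, rfl, b2⟩
      exact ⟨_, mul_mem a1 b1, map_mul _ _ _, by simp [a2, b2]⟩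
    · rintro _ _ ⟨p, a1, rfl, a2⟩
      exact ⟨_, inv_mem a1, map_inv _ _, by simp [a2, mul_assoc]⟩
  obtain ⟨p, a1, a2, a3⟩ := k _ hu
  obtain ⟨q, b1, b2, b3⟩ := k _ hv
  have := PcData.mem_tails hD (π.comp (MonoidHom.fst E E)) (y := Y) (t := T) hT (fun r => ht r)
    (hP.trans (card_le_of_le hA)) (h := ⁅p, q⁆) (mul_mem (mul_mem (mul_mem a1 b1) (inv_mem a1)) (inv_mem b1)) (by
      rwa [map_commutatorElement, commutatorElement_eq_one_iff_commute, MonoidHom.comp_apply, MonoidHom.comp_apply,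
        MonoidHom.coe_fst, a2, b2])
  rw [MonoidHom.map_closure] at this
  rw [comm_congr hc (e1.trans a3.symm) (e2.trans b3.symm), comm_congr hc a2.symm b2.symm]
  have e3 : ⁅p, q⁆ ∈ (MonoidHom.fst E E).eqLocus (MonoidHom.snd E E) := by
    refine (closure_le _).2 ?_ this
    rintro _ ⟨_, ⟨r, -, rfl⟩, rfl⟩
    exact Eq.refl (t r : E)
  have e4 : MonoidHom.fst E E ⁅p, q⁆ = MonoidHom.snd E E ⁅p, q⁆ := e3
  rw [map_commutatorElement, map_commutatorElement] at e4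
  exact e4.symm

theorem stab_of_fold {D : ChevalleyDatum} [Good D] [Conn D] {K : Type*} [Field K] {X : Sys D K G} {S : Sym D}
    {Γ : Subgroup G} (h : X.Fold S Γ) (c : X.Cover) {π : E →* Γ} (hc : π.ker ≤ center E)
    (hU : ∀ a : Γ, a ∈ π.range ↔ (a : G) ∈ X.UP) (hH : ∀ t : Γ, (t : G) ∈ X.H → Stab π t)
    (hN : ∀ i, ∃ n : Γ, (n : G) ∈ X.N ∧ X.Mon n (S.w1 i) ∧
      StabOn π ((X.U {r | Pos r ∧ ¬ InJ (S.orb i) r}).subgroupOf Γ) n) (g : Γ) : Stab π g := by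
  have key : ∀ w ∈ S.W1, ∀ n : Γ, (n : G) ∈ X.N → X.Mon n w → Stab π n := fun w hw =>
    S.W1_induction (P := fun w => ∀ n : Γ, (n : G) ∈ X.N → X.Mon n w → Stab π n)
      (fun n h1 h2 => hH n (c.mem_H_of_mon h1 h2)) (fun w hw i hi ih n h1 h2 => by
      obtain ⟨m, a1, a2, a3⟩ := hN i
      rw [← inv_mul_cancel_right n m]
      refine (ih _ (mul_mem h1 (inv_mem a1)) (by simpa using h2.mul a2.inv)).mul a3 fun a b1 b2 => ?_
      rw [inv_mul_cancel_right, hU] at b2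
      obtain ⟨p, c1, q, c2, e⟩ := exists_mul nilp_Pos {r | Pos ((w * S.w1 i) • r)} ((hU a).1 b1)
      have c3 : (n : G) * q * (n : G)⁻¹ = 1 := c.eq_one_of_B_UN (X.UP_le_B (by
        have := mul_mem (inv_mem (h2.conj_mem_U (T := {r | Pos r}) (fun r hr => hr.2) c1)) b2
        simpa [e, mul_assoc] using this)) (h2.conj_mem_U (fun r hr => hr.2) c2)
      have c4 : (a : G) ∈ X.U {r | Pos r ∧ ¬ InJ (S.orb i) r} := by
        rw [e, conj_eq_one_iff.1 c3, mul_one]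
        refine X.U_mono (fun r hr => And.intro hr.1 fun hJ => ?_) c1
        have := pos_smul_of_inJ (fun j hj => (S.pos_orb hw hj).mpr hi) (pos_ng_iff.mpr (not_pos_w0 hr.1 hJ))
          (inJ_ng.mpr ((inJ_smul (w0_mem _)).mpr hJ))
        rw [smul_ng, pos_ng_iff, ← mul_smul] at this
        exact this hr.2
      exact ⟨c4, (hU _).2 (a2.conj_mem_U (fun r hr => pos_smul_of_not_inJ (w0_mem _) hr.1 hr.2) c4)⟩) hw
  obtain ⟨w, hw, u, hu, n, hn, a1, u', hu', e⟩ := h.exists_canon c g.2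
  obtain ⟨p, hp⟩ := (hU ⟨u, hu.2⟩).2 hu.1
  obtain ⟨q, hq⟩ := (hU ⟨u', hu'.2⟩).2 (X.UI_le w hu'.1)
  rw [show g = π p * (⟨n, hn.2⟩ * π q) from Subtype.ext (by simp [e, hp, hq, mul_assoc])]
  refine (stab_range hc p).mul (((key w hw ⟨n, hn.2⟩ hn.1 a1).mul ((stab_range hc q).on ⊤) fun a b _ =>
    ⟨trivial, mul_mem (mul_mem ⟨q, rfl⟩ b) (inv_mem ⟨q, rfl⟩)⟩).on ⊤) fun a _ b => ⟨trivial, ?_⟩
  simpa [mul_assoc] using mul_mem (mul_mem (inv_mem (show π p ∈ π.range from ⟨p, rfl⟩)) b) ⟨p, rfl⟩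

/-- compare two words by collection. -/
def PcData.eqW (D : PcData) (fuel : ℕ) (u v : List ℕ) : Bool :=
  eqL (coll D 0 D.N fuel [] u 0).1 (coll D 0 D.N fuel [] v 0).1

theorem PcData.Rel.W_eq {D : PcData} {x : ℕ → G} (h : D.Rel x) {fuel : ℕ} {u v : List ℕ} (e : D.eqW fuel u v = true) :
    W x u = W x v := by
  have hT : D.Tail x fun _ => 1 := ⟨by simpa using h.pow, by simpa using h.conj, by simpa using h.fus⟩
  have k : ∀ u, Wr x (coll D 0 D.N fuel [] u 0).1 = W x u := fun u => by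
    obtain ⟨z, h1, h2⟩ := coll_spec' hT fuel u (Rv.zero (w := 0))
    simpa [mem_bot.1 (h1.mem (S := ⊥) fun _ => one_mem _)] using h2
  rw [← k, eq_of_eqL _ _ e, k]

end Cfsg.Agent.Known
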