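import Cfsg.Agent.Known.Cor2
import Cfsg.Agent.TwM.E6

/-! The Sylow `2`-subgroup of ²E₆(2) (helper25): words `V` in root elements over the field with four elements, the
collector `col`, generators `x`, the simply connected group `Γ`, `le_gen`, `card_rad`, `sb_odd`. -/

set_option autoImplicit false
set_option maxRecDepth 100000

namespace Cfsg.Agent.Known.E62

open Cfsg.Lie Cfsg.Agent.Chev Cfsg.Agent.Chev.Sys Cfsg.Agent.ChAut Subgroup

abbrev Lt := ℕ × Fin 4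
def fa (a b : Fin 4) : Fin 4 := Fin.ofNat 4 (a.1 ^^^ b.1)
def fm (a b : Fin 4) : Fin 4 := ![![0, 0, 0, 0], ![0, 1, 2, 3], ![0, 2, 3, 1], ![0, 3, 1, 2]] a b
def sR (r s : ℕ) : ℕ := ((nrm 2 (chevE6.commTerms r s)).map (·.1)).headD 0

def col : ℕ → List Lt → List Lt → List Lt
  | 0, acc, todo => acc.reverse ++ todo
  | _ + 1, acc, [] => acc.reverse
  | f + 1, [], a :: todo => if a.2 = 0 then col f [] todo else col f [a] todo
  | f + 1, b :: acc, a :: todo => if a.2 = 0 then col f (b :: acc) todo else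
      if a.1 = b.1 then col f acc ((a.1, fa b.2 a.2) :: todo) else if 36 ≤ a.1 ∧ a.1 < b.1 ∧ b.1 < 72 then
        col f acc (a :: b :: (sR a.1 b.1, if sR a.1 b.1 = 0 then 0 else fm a.2 b.2) :: todo)
      else col f (a :: b :: acc) todo

theorem chk : ∀ b < 72, ∀ a < b, 36 ≤ a → CommIs chevE6 2 a b (if sR a b = 0 then [] else [(sR a b, 1, 1, 1)]) := by
  decide +kernel

def gn (i : ℕ) : List Lt := [[(39, 1)], [(42, 1), (37, 1)], [(42, 2), (37, 3)], [(46, 1)], [(56, 1), (36, 1)],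
  [(56, 2), (36, 3)], [(43, 1), (40, 1)], [(43, 2), (40, 3)], [(47, 1)], [(57, 1), (38, 1)], [(57, 2), (38, 3)],
  [(44, 1)], [(50, 1), (48, 1)], [(50, 2), (48, 3)], [(58, 1), (41, 1)], [(58, 2), (41, 3)], [(51, 1)],
  [(59, 1), (45, 1)], [(59, 2), (45, 3)], [(61, 1), (49, 1)], [(61, 2), (49, 3)], [(53, 1)], [(60, 1)],
  [(62, 1), (52, 1)], [(62, 2), (52, 3)], [(63, 1)], [(64, 1), (54, 1)], [(64, 2), (54, 3)], [(65, 1)],
  [(67, 1), (55, 1)], [(67, 2), (55, 3)], [(68, 1), (66, 1)], [(68, 2), (66, 3)], [(69, 1)], [(70, 1)],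
  [(71, 1)]].getD i []

def sI (i : ℕ) : Sm chevE6 := ⟨i % 6, Nat.mod_lt _ (by decide)⟩
def NS (k : ℕ) : List (Sm chevE6) := [[sI 1], [sI 3], [sI 2, sI 4], [sI 0, sI 5]].getD k []
def te (k i : ℕ) : ℕ := (if k = 4 then [1, 0, 0, 0, 0, 2] else [0, 0, 1, 0, 2, 0]).getD i 0
def pw (e : ℤ) : Fin 4 := if e % 3 = 0 then 1 else if e % 3 = 1 then 2 else 3
def nact (l : List (Sm chevE6)) (r : ℕ) : ℕ := l.foldr (fun i => chevE6.reflectRoot i) r
def act (k : ℕ) (p : Lt) : Lt := if k < 4 then (nact (NS k) p.1, p.2) else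
  (p.1, fm (pw (∑ i : Sm chevE6, te k i * chevE6.cartan i p.1)) p.2)
/-- equality of two words in the generators. -/
def eqv (u v : List ℕ) : Prop := (∀ a ∈ u ++ v, a < 36) ∧ col 200 [] (u.flatMap gn) = col 200 [] (v.flatMap gn)
/-- the `k`-th element conjugates `u` to `v`. -/
def cjv (k : ℕ) (u v : List ℕ) : Prop :=
  (∀ a ∈ u ++ v, a < 36) ∧ col 200 [] ((u.flatMap gn).map (act k)) = col 200 [] (v.flatMap gn)
instance instDecEqv (u v : List ℕ) : Decidable (eqv u v) := by unfold eqv; infer_instance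
instance instDecCjv (k : ℕ) (u v : List ℕ) : Decidable (cjv k u v) := by unfold cjv; infer_instance

variable {K : Type*} [Field K]

/-- the field with four elements. -/
structure F4 (ω : Kˣ) (φ : K →+* K) : Prop where
  two : ((2 : ℕ) : K) = 0
  sq : (ω : K) * ω = ω + 1
  all : ∀ t : K, t = 0 ∨ t = 1 ∨ t = ω ∨ t = ω + 1
  hφ : ∀ t, φ t = t ^ 2
  h2 : ∀ t, φ (φ t) = t
  card : Nat.card K = 2 ^ 2

def enc (ω : Kˣ) (c : Fin 4) : K := ![0, 1, (ω : K), (ω : K) + 1] c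

/-- a word in root elements. -/
noncomputable def V (ω : Kˣ) (w : List Lt) : chevE6.SteinbergGroup K :=
  (w.map fun p => (stS chevE6 K).xN p.1 (enc ω p.2)).prod

noncomputable def tv (ω : Kˣ) (k : ℕ) : Sm chevE6 → Kˣ := fun i => ω ^ te k i

noncomputable def g (ω : Kˣ) (k : ℕ) : chevE6.SteinbergGroup K :=
  if k < 4 then ((NS k).map fun i => (stS chevE6 K).n (sm i) 1).prod else (stS_mult chevE6 K).tor (tv ω k)

noncomputable def x (ω : Kˣ) (i : ℕ) : chevE6.SteinbergGroup K := if i < 36 then V ω (gn i) else g ω (i - 36)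

variable (K) in
/-- the simply connected group. -/
abbrev Γ : Subgroup (chevE6.SteinbergGroup K) := (stS chevE6 K).genW (e6Words K 2)

variable {ω : Kˣ} {φ : K →+* K}

@[simp] theorem V_nil : V ω [] = 1 := rfl
@[simp] theorem V_cons (p : Lt) (w : List Lt) : V ω (p :: w) = (stS chevE6 K).xN p.1 (enc ω p.2) * V ω w := rfl
@[simp] theorem V_append (w w' : List Lt) : V ω (w ++ w') = V ω w * V ω w' := by simp [V]

theorem W_x {u : List ℕ} (h : ∀ a ∈ u, a < 36) : W (x ω) u = V ω (u.flatMap gn) := by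
  induction u with
  | nil => rfl
  | cons a u ih => rw [W_cons, List.flatMap_cons, V_append, ih fun b hb => h b (.tail _ hb), x, if_pos (h a (.head _))]

namespace F4

variable (h : F4 ω φ)
include h

theorem enc_add (a b : Fin 4) : enc ω (fa a b) = enc ω a + enc ω b := by
  have e : (2 : K) = 0 := h.two
  fin_cases a <;> fin_cases b <;> simp [enc, fa, Fin.ofNat] <;> grind

theorem enc_mul (a b : Fin 4) : enc ω (fm a b) = enc ω a * enc ω b := by
  have e : (2 : K) = 0 := h.two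
  have := h.sq
  fin_cases a <;> fin_cases b <;> simp [enc, fm] <;> grind

theorem cube : ω ^ 3 = 1 := Units.ext (by
  have e : (2 : K) = 0 := h.two
  have := h.sq
  push_cast; grind)

theorem enc_pw (e : ℤ) : enc ω (pw e) = (ω ^ e : Kˣ) := by
  rw [zpow_eq_zpow_emod e (n := 3) h.cube, pw]
  split_ifs with a b
  · simp [a, enc]
  · simp [b, enc]
  · rw [show e % 3 = 2 by omega]; simp [enc, pow_two, ← h.sq]

theorem neg (t : K) : -t = t := by
  have e : (2 : K) = 0 := h.two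
  grind

theorem V_col (f : ℕ) (acc todo : List Lt) : V ω (col f acc todo) = V ω acc.reverse * V ω todo := by
  fun_induction col f acc todo with
  | case1 => simp
  | case2 => simp
  | case3 f a todo e ih => simp [ih, e, enc, xN_zero]
  | case4 f a todo e ih => simp [ih]
  | case5 f b acc a todo e ih => simp [ih, e, enc, xN_zero]
  | case6 f b acc a todo e e' ih => rw [ih]; simp [e', h.enc_add, mul_assoc, xN_add']
  | case7 f b acc a todo e e' e'' ih =>
    rw [ih, List.reverse_cons, V_append, V_cons b, V_nil, mul_one, mul_assoc, V_cons a todo,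
      xN_swap h.two (chk _ e''.2.2 _ e''.2.1 e''.1)]
    split_ifs <;> simp [evT, enc, xN_zero, gword_cons', h.neg]
    exact congrArg _ (h.enc_mul _ _)
  | case8 f b acc a todo e e' e'' ih => simp [ih, mul_assoc]

theorem W_eq {u v : List ℕ} (e : eqv u v) : W (x ω) u = W (x ω) v := by
  rw [W_x fun a ha => e.1 a (by simp [ha]), W_x fun a ha => e.1 a (by simp [ha])]
  simpa [h.V_col] using congrArg (V ω) e.2

theorem conj_x (k : ℕ) (p : Lt) (hp : p.1 < 72) : g ω k * (stS chevE6 K).xN p.1 (enc ω p.2) * (g ω k)⁻¹ =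
    (stS chevE6 K).xN (act k p).1 (enc ω (act k p).2) := by
  obtain ⟨r, c⟩ := p
  obtain ⟨r, rfl⟩ : ∃ r' : Rt chevE6, r' = r := ⟨⟨r, hp⟩, rfl⟩
  unfold g act
  split_ifs
  · generalize NS k = l
    suffices ∃ s : Rt chevE6, s = nact l r ∧ (l.map fun i => (stS chevE6 K).n (sm i) 1).prod *
        (stS chevE6 K).x r (enc ω c) * (l.map fun i => (stS chevE6 K).n (sm i) 1).prod⁻¹ = (stS chevE6 K).x s (enc ω c) by
      obtain ⟨s, a, b⟩ := this
      simp only [← a, xN_val, b]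
    induction l with
    | nil => exact ⟨r, rfl, by simp⟩
    | cons i l ih =>
      obtain ⟨s, a, b⟩ := ih
      refine ⟨refl (sm i) s, by rw [refl_sm_val, a]; rfl, ?_⟩
      have := (stS chevE6 K).n_conj (sm i) s one_ne_zero (enc ω c)
      rw [show (eta (sm i) s : K) = 1 by rcases eta_eq (sm i) s with e | e <;> simp [e, h.neg]] at this
      simpa [← b, mul_assoc] using this
  · have e : ∀ f : Sm chevE6 → ℤ, ω ^ ∑ i, f i = ∏ i, ω ^ f i := fun f =>
      _root_.map_prod (zpowersHom Kˣ ω) (fun i => Multiplicative.ofAdd (f i)) Finset.univ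
    rw [xN_val, xN_val, Mult.tor_conj, h.enc_mul, h.enc_pw, e]
    simp only [chi, tv, zpow_mul, zpow_natCast, car]

theorem W_cj {k : ℕ} {u v : List ℕ} (e : cjv k u v) : W (x ω) v = g ω k * W (x ω) u * (g ω k)⁻¹ := by
  rw [W_x fun a ha => e.1 a (by simp [ha]), W_x fun a ha => e.1 a (by simp [ha])]
  have k1 : ∀ w : List Lt, (∀ p ∈ w, p.1 < 72) → V ω (w.map (act k)) = g ω k * V ω w * (g ω k)⁻¹ := fun w hw => by
    induction w with
    | nil => simp
    | cons p w ih => rw [List.map_cons, V_cons, V_cons, ih fun q hq => hw q (.tail _ hq), ← h.conj_x k p (hw p (.head _))]; group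
  rw [← k1 _ (List.forall_mem_flatMap.2 fun a ha => (by decide +kernel : ∀ a < 36, ∀ p ∈ gn a, p.1 < 72) a
    (e.1 a (by simp [ha])))]
  simpa [h.V_col] using congrArg (V ω) e.2.symm

theorem gen : (αE6 φ).Gen (Γ K) := genE6 h.hφ h.h2

theorem φ_enc (c : Fin 4) : φ (enc ω c) = enc ω (fm c c) := by rw [h.hφ, h.enc_mul, pow_two]

theorem σ_xN {r : ℕ} (hr : r < 72) (t : K) : (αE6 φ).σ ((stS chevE6 K).xN r t) = (stS chevE6 K).xN (twE6.ι r) (φ t) := by
  refine (twE6_ok.autSt_xN symE6 symE6_ρ Nat.cast_zero φ hr t).trans ?_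
  rw [show (twE6.ε r : K) = 1 by
    rcases (by decide +kernel : ∀ r < 72, twE6.ε r = 1 ∨ twE6.ε r = -1) r hr with e | e <;> simp [e, h.neg], one_mul]
  exact congrArg _ (pow_one _)

theorem x_UP {i : ℕ} (hi : i < 36) : x ω i ∈ (stS chevE6 K).UP := by
  rw [x, if_pos hi]
  refine list_prod_mem (List.forall_mem_map.2 fun p hp => ?_)
  obtain ⟨r, e, a⟩ := (by decide +kernel : ∀ i < 36, ∀ p ∈ gn i, ∃ r : Rt chevE6, r = p.1 ∧ Pos r) i hi p hp
  rw [← e, xN_val]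
  exact (stS chevE6 K).x_mem_U a _

theorem n_mem (k : ℕ) : ((NS k).map fun i => (stS chevE6 K).n (sm i) 1).prod ∈ Γ K := by
  have a1 : ∀ i : Sm chevE6, chevE6.simple i ∈ [e6p2, e6m2, e6p4, e6m4] →
      chevE6.neg (chevE6.simple i) ∈ [e6p2, e6m2, e6p4, e6m4] → (stS chevE6 K).n (sm i) 1 ∈ Γ K := fun i h1 h2 => by
    have b1 : gword (stS chevE6 K).x [(sm i, 1)] ∈ Γ K := mem_genW (.inl ⟨1, by simp, _, h1, rfl⟩)
    have b2 : gword (stS chevE6 K).x [(ng (sm i), 1)] ∈ Γ K := mem_genW (.inl ⟨1, by simp, _, h2, rfl⟩)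
    simp only [gword_cons, gword_nil, mul_one] at b1 b2
    rw [Sys.n, h.neg, inv_one]
    exact mul_mem (mul_mem b1 b2) b1
  have a2 : ∀ i j : Sm chevE6, (chevE6.simple i, chevE6.simple j) ∈ [(e6p1, e6p6), (e6m1, e6m6), (e6p3, e6p5), (e6m3, e6m5)] →
      (chevE6.neg (chevE6.simple i), chevE6.neg (chevE6.simple j)) ∈ [(e6p1, e6p6), (e6m1, e6m6), (e6p3, e6p5), (e6m3, e6m5)] →
      (∀ k ∈ ({sm j, ng (sm j)} : Set (Rt chevE6)), CommIs chevE6 0 (sm i) k [] ∧ CommIs chevE6 0 (chevE6.neg (sm i)) k []) →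
      (stS chevE6 K).n (sm i) 1 * (stS chevE6 K).n (sm j) 1 ∈ Γ K := fun i j h1 h2 h3 => by
    have b1 : gword (stS chevE6 K).x [(sm i, 1), (sm j, 1 ^ 2)] ∈ Γ K := mem_genW (.inr ⟨1, _, h1, rfl⟩)
    have b2 : gword (stS chevE6 K).x [(ng (sm i), 1), (ng (sm j), 1 ^ 2)] ∈ Γ K := mem_genW (.inr ⟨1, _, h2, rfl⟩)
    simp only [gword_cons, gword_nil, mul_one, one_pow] at b1 b2
    rw [Sys.n, Sys.n, h.neg, inv_one, ← mul_comm3 ((stS chevE6 K).commute_of_orth Nat.cast_zero h3)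
      (x_mem_U _ (by simp) _) (x_mem_U _ (by simp) _) (x_mem_U _ (by simp) _) (x_mem_U _ (by simp) _)]
    exact mul_mem (mul_mem b1 b2) b1
  match k with
  | 0 => simpa [NS] using a1 (sI 1) (by decide) (by decide)
  | 1 => simpa [NS] using a1 (sI 3) (by decide) (by decide)
  | 2 => simpa [NS] using a2 (sI 2) (sI 4) (by decide) (by decide) (by decide +kernel)
  | 3 => simpa [NS] using a2 (sI 0) (sI 5) (by decide) (by decide) (by decide +kernel)
  | k + 4 => simp [NS, one_mem]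

theorem pow_eq {a b : ℕ} (e : a % 3 = b % 3) : ω ^ a = ω ^ b := by
  rw [pow_eq_pow_mod a h.cube, e, ← pow_eq_pow_mod b h.cube]

theorem x_mem (i : ℕ) : x ω i ∈ Γ K := by
  by_cases hi : i < 36
  · refine h.gen.UP_le ⟨h.x_UP hi, Aut.mem_fix.2 ?_⟩
    obtain ⟨a, b⟩ := (by decide +kernel : ∀ i < 36, (∀ p ∈ gn i, p.1 < 72) ∧
      col 20 [] ((gn i).map fun p => (twE6.ι p.1, fm p.2 p.2)) = col 20 [] (gn i)) i hi
    have := congrArg (V ω) b
    rw [h.V_col, h.V_col, mul_right_inj] at this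
    rw [x, if_pos hi]
    refine Eq.trans ?_ this
    rw [V, V, map_list_prod, List.map_map, List.map_map]
    exact congrArg _ (List.map_congr_left fun p hp => (h.σ_xN (a p hp) _).trans (by rw [h.φ_enc]; rfl))
  rw [x, if_neg hi, g]
  split_ifs
  · exact h.n_mem _
  refine tor_memE6 h.hφ ((mem_fixTE6 h.hφ).2 fun j => ?_)
  rw [← Units.val_pow_eq_pow_val]
  refine congrArg _ ((h.pow_eq ?_).trans (pow_mul ω (te _ j) 2))
  unfold te
  split_ifs <;> revert j <;> decide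

/-- the pairs of roots of the generators. -/
theorem le_gen {ψ : Fn chevE6} {Z : Set (Rt chevE6)} (hZ : Nilp ψ Z) {R : List (ℕ × ℕ)}
    (hE : Enum Z (R.flatMap fun p => if p.1 = twE6.ι p.1 then [p.1] else [p.1, twE6.ι p.1]))
    (hR : ∀ p ∈ R, p.1 < 72 ∧ p.2 + 1 < 37 ∧ twE6.ι p.1 < 72 ∧ twE6.ι (twE6.ι p.1) = p.1 ∧
      if p.1 = twE6.ι p.1 then gn p.2 = [(p.1, 1)] else CommIs chevE6 2 p.1 (twE6.ι p.1) [] ∧ p.2 + 1 < 36 ∧
        gn p.2 = [(p.1, 1), (twE6.ι p.1, 1)] ∧ gn (p.2 + 1) = [(p.1, 2), (twE6.ι p.1, 3)])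
    {Q : Subgroup (chevE6.SteinbergGroup K)} (hQ : ∀ p ∈ R, x ω p.2 ∈ Q ∧ (p.1 ≠ twE6.ι p.1 → x ω (p.2 + 1) ∈ Q)) :
    (stS chevE6 K).U Z ⊓ Γ K ≤ Q := fun u hu => by
  obtain ⟨t, rfl⟩ := exists_gword hZ hE hu.1
  have e := Aut.mem_fix.1 (h.gen.le hu.2)
  have k : ∀ (t : ℕ → K) (R : List (ℕ × ℕ)), gword (stS chevE6 K).x ((R.flatMap fun p => if p.1 = twE6.ι p.1 then [p.1]
      else [p.1, twE6.ι p.1]).map fun k => (k, t k)) = (R.map fun p => if p.1 = twE6.ι p.1 then (stS chevE6 K).xN p.1 (t p.1)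
        else (stS chevE6 K).xN p.1 (t p.1) * (stS chevE6 K).xN (twE6.ι p.1) (t (twE6.ι p.1))).prod := fun t R => by
    induction R with
    | nil => rfl
    | cons p R ih =>
      rw [List.flatMap_cons, List.map_append, gword_append, ih, List.map_cons, List.prod_cons]
      split_ifs <;> simp [gword_cons']
  rw [k, map_list_prod, List.map_map, List.map_congr_left (g := fun p => if p.1 = twE6.ι p.1 then
    (stS chevE6 K).xN p.1 (φ (t (twE6.ι p.1))) else (stS chevE6 K).xN p.1 (φ (t (twE6.ι p.1))) *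
      (stS chevE6 K).xN (twE6.ι p.1) (φ (t (twE6.ι (twE6.ι p.1))))) fun p hp => by
      obtain ⟨a1, -, a2, a3, a4⟩ := hR p hp
      simp only [Function.comp]
      split_ifs at a4 ⊢ with c
      · rw [h.σ_xN a1, ← c]
      · rw [map_mul, h.σ_xN a1, h.σ_xN a2, a3, (xN_commute _ h.two a4.1 _ _).eq], ← k (fun r => φ (t (twE6.ι r))), ← k,
    (stCover chevE6 K).gword_inj hZ hE subset_rfl (by simp [Function.comp_def]) (by simp [Function.comp_def]),
    List.map_inj_left] at e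
  rw [k]
  refine list_prod_mem (List.forall_mem_map.2 fun p hp => ?_)
  obtain ⟨-, a0, -, -, a4⟩ := hR p hp
  obtain ⟨b1, b2⟩ := hQ p hp
  have e1 : φ (t (twE6.ι p.1)) = t p.1 := by
    simpa using e p.1 (List.mem_flatMap.2 ⟨p, hp, by split_ifs <;> simp⟩)
  have e2 : (2 : K) = 0 := h.two
  have e3 := h.sq
  rw [x, if_pos (by omega)] at b1
  split_ifs at a4 ⊢ with c
  · rw [← c, h.hφ] at e1
    obtain e | e : t p.1 = 0 ∨ t p.1 = 1 := by grind
    · simp [e, xN_zero, one_mem]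
    · simpa [a4, e, enc] using b1
  · replace b2 := b2 c
    rw [x, if_pos a4.2.1] at b2
    rw [← h.h2 (t (twE6.ι p.1)), e1, h.hφ]
    simp only [a4.2.2.1, a4.2.2.2, V_cons, V_nil, mul_one] at b1 b2
    rcases h.all (t p.1) with e | e | e | e <;> rw [e]
    · simp [xN_zero, one_mem]
    · simpa [enc] using b1
    · simpa [enc, pow_two, e3] using b2
    · have := mul_mem b1 b2
      rw [mul_assoc, (xN_commute _ h.two a4.1 _ _).left_comm, xN_add', xN_add] at this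
      convert this using 2 <;> simp [enc] <;> grind

theorem H_eq : (stS chevE6 K).H ⊓ Γ K = (twE6.fixT symE6 φ).map (stS_mult chevE6 K).tor :=
  twE6_ok.H_inf_eq symE6 symE6_ρ Nat.cast_zero φ (tor_injectiveE6 K) h.gen.le fun _ => tor_memE6 h.hφ

theorem exists_pow {t : chevE6.SteinbergGroup K} (h1 : t ∈ (stS chevE6 K).H) (h2 : t ∈ Γ K) :
    ∃ i j : ℕ, t = x ω 40 ^ i * x ω 41 ^ j := by
  obtain ⟨a, ha, rfl⟩ := h.H_eq.le ⟨h1, h2⟩
  replace ha := (mem_fixTE6 h.hφ).1 ha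
  have k : ∀ u : Kˣ, ∃ i : ℕ, u = ω ^ i := fun u => by
    rcases h.all u with e | e | e | e
    exacts [absurd e u.ne_zero, ⟨0, Units.ext (e.trans (by simp))⟩, ⟨1, Units.ext (by simpa)⟩,
      ⟨2, Units.ext (by simpa [pow_two, h.sq])⟩]
  have k1 : ∀ u : Kˣ, (u : K) = u ^ 2 → u = 1 := fun u e => Units.ext (by have := u.ne_zero; push_cast; grind)
  obtain ⟨i, hi⟩ := k (a (0 : Fin 6))
  obtain ⟨j, hj⟩ := k (a (2 : Fin 6))
  refine ⟨i, j, Eq.trans (congrArg _ (funext fun l : Fin 6 => ?_)) (by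
    rw [map_mul, map_pow, map_pow]; rfl : (stS_mult chevE6 K).tor (tv ω 4 ^ i * tv ω 5 ^ j) = _)⟩
  show _ = (ω ^ te 4 l) ^ i * (ω ^ te 5 l) ^ j
  fin_cases l
  · simpa [te]
  · simpa [te] using k1 _ (ha 1)
  · simpa [te]
  · simpa [te] using k1 _ (ha 3)
  · simpa [te, hj, ← pow_mul, mul_comm] using show a (4 : Fin 6) = a (2 : Fin 6) ^ 2 from Units.ext (ha 2)
  · simpa [te, hi, ← pow_mul, mul_comm] using show a (5 : Fin 6) = a (0 : Fin 6) ^ 2 from Units.ext (ha 0)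

variable [Finite K]

theorem card_UI (i : Sm chevE6) : Nat.card ↥((stS chevE6 K).UI (symE6.w1 i) ⊓ Γ K) = 2 ^ wlen (symE6.w1 i) := by
  rw [← card_UIE6 h.hφ h.h2 one_lt_two h.card, twistedE6, ← (stCover chevE6 K).map_genW,
    h.gen.fold.card_map_U _ (stS_U_univ _ _) fun _ h => h.1]

theorem card_UP : Nat.card ↥((stS chevE6 K).UP ⊓ Γ K) = 2 ^ 36 :=
  (pow_one _).symm.trans (h.gen.fold.card_UP_pow (stCover _ _) fun i => (pow_one _).trans (h.card_UI i))

theorem card_Γ : Nat.card (Γ K) = 2 ^ 36 * 3341082469725 := by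
  rw [h.gen.fold.card_eq_poin (stCover _ _) h.card_UI, poin2E6_eq, h.H_eq, card_map_of_injective (tor_injectiveE6 K),
    card_fixTE6 h.hφ h.h2, Nat.card_prod, Nat.card_prod, Nat.card_prod, (card_pow_eq_self one_lt_two h.card).1,
    Nat.card_units, h.card]
  decide +kernel

theorem card_rad {i : Sm chevE6} {L L' : List ℕ} (hL : symE6.Orb i L L') (hl : L.length ≤ 36) :
    2 ^ (36 - L.length) ≤ Nat.card ↥((stS chevE6 K).U {r | Pos r ∧ ¬ InJ (symE6.orb i) r} ⊓ Γ K) := by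
  have e := h.gen.fold.card_UI_mul (stCover _ _) (w := w0 Set.univ * symE6.w1 i) (i := i)
    (mul_mem (symE6.w0_mem_W1 (by simp)) (symE6.w1_mem i)) (by
      simpa [mul_smul, Sym.w1] using pos_ng_iff.mpr (not_pos_w0 (J := Set.univ)
        (pos_ng_iff.mpr (not_pos_w0 (pos_sm i) (inJ_sm.mpr (symE6.mem_orb i)))) (by simp [InJ])))
  rw [mul_assoc, Sym.w1, w0_mul_self, mul_one, UI_w0_univ, h.card_UP, ← Sym.w1, h.card_UI, Sym.w1, wlen_w0 hL.1] at e
  haveI := finite_st (D := chevE6) (F := K)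
  refine le_trans (Nat.le_of_mul_le_mul_right ?_ (Nat.two_pow_pos L.length)) (card_le_of_le (inf_le_inf_right _ ((stS chevE6 K).U_mono
    (S := {r | Pos r ∧ ¬ Pos ((w0 Set.univ * w0 (symE6.orb i)) • r)}) fun r hr => And.intro hr.1 fun hJ => hr.2 ?_)))
  · rw [← e, ← pow_add, Nat.sub_add_cancel hl]
  · simpa [mul_smul] using pos_ng_iff.mpr (not_pos_w0 (J := Set.univ) (pos_ng_iff.mpr (not_pos_w0 hr.1 hJ)) (by simp [InJ]))

theorem sb_odd : SBnd (Γ K) (2 ^ 36) [] := by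
  haveI := finite_st (D := chevE6) (F := K)
  refine sbnd_of_odd h.card_Γ (by decide) fun E _ _ σ hσ h2 => ?_
  have e : ((Γ K).subtype.comp σ).ker = σ.ker := σ.ker_comp_of_injective _ (Γ K).subtype_injective
  have := ringChar.of_eq (CharP.ringChar_of_prime_eq_zero Nat.prime_two h.two)
  have hi := tor_injectiveE6 K
  have hφ := h.hφ
  obtain ⟨N1, N2, N3, N4⟩ := lnE6 hφ h.h2 one_lt_two h.card
  rw [twistedE6, ← (stCover chevE6 K).map_genW] at N1 N2 N3 N4
  obtain ⟨V, hV⟩ := TwM.exists_PL (τ := (Γ K).subtype.comp σ) (Γ := Γ K) (stCover chevE6 K) 2 (fun g => (σ g).2)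
    (fun y hy => (hσ.1 ⟨y, hy⟩).imp fun _ => congrArg Subtype.val) (e ▸ hσ.2.1) (e ▸ h2)
  refine eq_bot_iff.2 fun z hz => TwM.eq_one_of_torOk hi repsE6 (by decide +kernel) ?_
    (hV.mem_T h.gen.fold (stCover _ _) h.gen.gen (e.ge hz) (hσ.2.2 hz)) (e.ge hz)
  simp only [List.forall_mem_cons, List.not_mem_nil, false_imp_iff, implies_true, and_true]
  exact ⟨hV.torOk_ad h.gen _ (stS_U_univ _ _) hi N1 fun t =>
      ⟨mem_genW (.inl ⟨t, hφ t ▸ t.2, e6p2, by simp, rfl⟩), mem_genW (.inl ⟨t, hφ t ▸ t.2, e6m2, by simp, rfl⟩)⟩,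
    hV.torOk_ad h.gen _ (stS_U_univ _ _) hi N2 fun t =>
      ⟨mem_genW (.inl ⟨t, hφ t ▸ t.2, e6p4, by simp, rfl⟩), mem_genW (.inl ⟨t, hφ t ▸ t.2, e6m4, by simp, rfl⟩)⟩,
    hV.torOk_ad h.gen _ (stS_U_univ _ _) hi N3 fun t =>
      ⟨mem_genW (.inr ⟨t, (e6p3, e6p5), by simp, hφ t ▸ rfl⟩), mem_genW (.inr ⟨t, (e6m3, e6m5), by simp, hφ t ▸ rfl⟩)⟩,
    hV.torOk_ad h.gen _ (stS_U_univ _ _) hi N4 fun t =>
      ⟨mem_genW (.inr ⟨t, (e6p1, e6p6), by simp, hφ t ▸ rfl⟩), mem_genW (.inr ⟨t, (e6m1, e6m6), by simp, hφ t ▸ rfl⟩)⟩⟩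

end F4

end Cfsg.Agent.Known.E62
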