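import Cfsg.Agent.Known.E62Lo

/-! Lower bound for the Schur multiplier of 3.²E₆(2) (helper25): `E62.F4.low`. -/

set_option autoImplicit false
set_option maxRecDepth 100000
set_option Elab.async false

namespace Cfsg.Agent.Known

open Cfsg.Agent.Comp Cfsg.Agent.Chev Cfsg.Agent.Chev.Sys Cfsg.Agent.ChAut Cfsg.Lie Subgroup
open scoped commutatorElement IsMulCommutative

theorem W_flatMap {G : Type*} [Group G] (x : ℕ → G) (f : ℕ → List ℕ) (l : List ℕ) :
    W x (l.flatMap f) = W (fun j => W x (f j)) l := by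
  induction l with
  | nil => rfl
  | cons a l ih => simp [ih]

theorem four_dvd_closure {A : Type*} [CommGroup A] {a b : A} (ha : a * a = 1) (hb : b * b = 1) (h1 : a ≠ 1) (h2 : b ≠ 1)
    (h3 : a * b ≠ 1) : 2 * 2 ∣ Nat.card (closure {a, b}) := by
  obtain ⟨f, hf⟩ := exists_zmod_hom (c := (⟨a, subset_closure (by simp)⟩ : closure {a, b})) (o := 2)
    (Subtype.ext ((pow_two a).trans ha))
  obtain ⟨g, hg⟩ := exists_zmod_hom (c := (⟨b, subset_closure (by simp)⟩ : closure {a, b})) (o := 2)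
    (Subtype.ext ((pow_two b).trans hb))
  have := AddSubgroup.card_dvd_of_injective (f.coprod g) ((injective_iff_map_eq_zero _).2 fun ⟨i, j⟩ e => by
    rcases (by decide : ∀ i : ZMod 2, i = 0 ∨ i = 1) i with rfl | rfl <;>
      rcases (by decide : ∀ i : ZMod 2, i = 0 ∨ i = 1) j with rfl | rfl
    · rfl
    · exact absurd (by simpa [hg] using e) h2
    · exact absurd (by simpa [hf] using e) h1
    · rw [AddMonoidHom.coprod_apply, hf, hg] at e
      exact absurd (congrArg Subtype.val e) h3)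
  rwa [Nat.card_prod, Nat.card_zmod] at this

namespace E62.F4

variable {K : Type*} [Field K] {ω : Kˣ} {φ : K →+* K} (h : F4 ω φ)

noncomputable def x0 (i : ℕ) : Γ K × Equiv.Perm ℕ := (if i < 36 then h.xs i else 1, y i)
/-- the covering group of the Sylow subgroup. -/
abbrev Ec : Subgroup (Γ K × Equiv.Perm ℕ) := closure (Set.range h.x0)
noncomputable def xt (i : ℕ) : h.Ec := ⟨h.x0 i, subset_closure ⟨i, rfl⟩⟩
noncomputable def pr : h.Ec →* Γ K := (MonoidHom.fst _ _).comp h.Ec.subtype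
noncomputable def pr2 : h.Ec →* Equiv.Perm ℕ := (MonoidHom.snd _ _).comp h.Ec.subtype

theorem pr_xt (i : ℕ) : h.pr (h.xt i) = if i < 36 then h.xs i else 1 := rfl

theorem pr_W (l : List ℕ) : h.pr (W h.xt l) = W h.xs (l.filter (· < 36)) := by
  induction l with
  | nil => simp
  | cons a l ih => by_cases e : a < 36 <;> simp [e, ih, pr_xt]

theorem pr_W' {l : List ℕ} (hl : ∀ a ∈ l, a < 36) : h.pr (W h.xt l) = W h.xs l := by
  rw [pr_W, List.filter_eq_self.2 (by simpa using hl)]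

theorem W_xt {u v : List ℕ} (e1 : eqv (u.filter (· < 36)) (v.filter (· < 36))) (e2 : eqP u v = true) :
    W h.xt u = W h.xt v := Subtype.ext (Prod.ext (show h.pr _ = h.pr _ by rw [pr_W, pr_W, h.W_eq' e1])
      (show h.pr2 _ = h.pr2 _ by rw [map_W, map_W]; exact W_y_eq e2))

theorem rel : D3.Rel h.xt := by
  refine ⟨fun i hi => (pow_two _).trans ?_, fun j hj i hi => ?_, fun k hk => absurd hk (Nat.not_lt_zero _)⟩
  · show _ = 1
    simpa using h.W_xt ((by decide +kernel : ∀ i < 38, eqv ([i, i].filter (· < 36)) (List.filter (· < 36) [])) i hi) (ck hi).1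
  · simpa using h.W_xt ((by decide +kernel : ∀ j < 38, ∀ i < j,
      eqv ([j, i].filter (· < 36)) ((i :: D3.cwi j i).filter (· < 36))) j hj i hi) ((ck hj).2 i hi)

theorem top {A : Subgroup h.Ec} (hA : ∀ i < 38, h.xt i ∈ A) (a : h.Ec) : a ∈ A := by
  refine closure_induction (p := fun a ha => (⟨a, ha⟩ : h.Ec) ∈ A) ?_ A.one_mem (fun _ _ _ _ => A.mul_mem)
    (fun _ _ => A.inv_mem) a.2
  rintro _ ⟨i, rfl⟩
  by_cases e : i < 38
  · exact hA i e
  · show h.xt i ∈ A
    rw [show h.xt i = 1 from Subtype.ext (Prod.ext (if_neg (by omega)) (Equiv.ext fun a => if_neg fun c => e c.1))]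
    exact A.one_mem

theorem cen {i : ℕ} (hi : i = 36 ∨ i = 37) : h.xt i ∈ center h.Ec := mem_center_iff.2 fun a =>
  (h.top (A := centralizer {h.xt i}) (fun j hj => mem_centralizer_singleton_iff.2 (by
    simpa using h.rel.W_eq ((by decide +kernel : ∀ j < 38, ∀ i < 38, i = 36 ∨ i = 37 → D3.eqW 9 [j, i] [i, j] = true) j hj i (by omega) hi))) a
      _ rfl).symm

theorem tz_mem {k r i : ℕ} (hi : i ∈ tz k r) : i = 36 ∨ i = 37 := by
  unfold tz at hi
  split_ifs at hi <;> simp_all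

noncomputable def tt (k r : ℕ) : center h.Ec := ⟨W h.xt (tz k r), W_mem _ fun _ hi => h.cen (tz_mem hi)⟩

theorem pr_tt (k r : ℕ) : h.pr (h.tt k r) = 1 := W_mem (K := h.pr.ker) _ fun _ hi => by
  rcases tz_mem hi with rfl | rfl <;> rfl

theorem tail {s d k : ℕ} {f : ℕ → List ℕ} (e : TailOK (Dk s d) k f) : (Dk s d).Tail (fun j => W h.xt (f j)) (h.tt k) :=
  ⟨fun i hi => (pow_two _).trans (by simpa [W_flatMap, tt] using h.rel.W_eq (e i hi).1),
    fun j hj i hi => by simpa [W_flatMap, tt, mul_assoc] using h.rel.W_eq ((e j hj).2 i hi), fun k hk => absurd hk (Nat.not_lt_zero _)⟩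

theorem z1 : ⁅W h.xt [25, 26], W h.xt [6, 7, 9, 10, 17, 18]⁆ = h.xt 36 := by
  have := h.rel.W_eq (by decide +kernel : D3.eqW 99 ([25, 26] ++ [6, 7, 9, 10, 17, 18]) (36 :: ([6, 7, 9, 10, 17, 18] ++ [25, 26])) = true)
  rw [W_append, W_cons _ 36, W_append] at this
  rw [commutatorElement_def, this]; group

theorem z2 : ⁅W h.xt [25, 26], W h.xt [6, 9, 18]⁆ = h.xt 37 := by
  have := h.rel.W_eq (by decide +kernel : D3.eqW 99 ([25, 26] ++ [6, 9, 18]) (37 :: ([6, 9, 18] ++ [25, 26])) = true)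
  rw [W_append, W_cons _ 37, W_append] at this
  rw [commutatorElement_def, this]; group

theorem top' {A : Subgroup h.Ec} (hA : ∀ i < 36, h.xt i ∈ A) (a : h.Ec) : a ∈ A := by
  have k : ∀ u v : List ℕ, (∀ i ∈ u, i < 36) ∧ (∀ i ∈ v, i < 36) → ⁅W h.xt u, W h.xt v⁆ ∈ A := fun u v e =>
    have a1 := W_mem _ fun i hi => hA i (e.1 i hi)
    have a2 := W_mem _ fun i hi => hA i (e.2 i hi)
    mul_mem (mul_mem (mul_mem a1 a2) (inv_mem a1)) (inv_mem a2)
  refine h.top (fun i hi => ?_) a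
  obtain e | rfl | rfl : i < 36 ∨ i = 36 ∨ i = 37 := by omega
  exacts [hA i e, h.z1 ▸ k _ _ (by decide), h.z2 ▸ k _ _ (by decide)]

theorem mem_range (a : Γ K) : a ∈ h.pr.range ↔ (a : chevE6.SteinbergGroup K) ∈ (stS chevE6 K).UP :=
  ⟨fun ⟨b, e⟩ => e ▸ h.top' (A := ((stS chevE6 K).UP.subgroupOf (Γ K)).comap h.pr) (fun i hi => by
      rw [mem_comap, pr_xt, if_pos hi]; exact h.x_UP hi) b,
    fun e => (closure_le _).2 (by rintro _ ⟨i, hi, rfl⟩; exact ⟨h.xt i, if_pos hi⟩) (h.UP_le e)⟩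

variable [Finite K]

theorem card_range : Nat.card h.pr.range = 2 ^ 36 := by
  rw [show h.pr.range = (stS chevE6 K).UP.subgroupOf (Γ K) from Subgroup.ext h.mem_range, card_sub, h.card_UP]

theorem img {s d : ℕ} {k : ℕ} (e : AllOK k s d) : (fun i => h.pr (W h.xt [Jf s d i])) '' {i | i < (Dk s d).n} =
    (fun i => h.xs (Jf s d i)) '' {i | i < 36 - d} :=
  Set.image_congr fun i hi => (h.pr_W' fun a ha => (e.2.2.2 i hi).1 a (List.mem_append_left _ ha)).trans (by simp)

theorem rg_le : h.pr.range ≤ closure ((fun i => h.xs (Jf 0 0 i)) '' {i | i < 36 - 0}) := fun a ha =>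
  h.UP_le ((h.mem_range a).1 ha)

theorem hc : h.pr.ker ≤ center h.Ec := fun a ha =>
  haveI := finite_st (D := chevE6) (F := K)
  map_subtype_le _ (PcData.mem_tails ok4.1 h.pr (h.tail ok4.2.1) (h.pr_tt 4)
    (h.img ok4 ▸ h.card_range.ge.trans (card_le_of_le h.rg_le))
    (h.top' (fun i hi => Subgroup.subset_closure ((Set.mem_image _ _ _).2 ⟨i, hi, by simp [Jf]⟩)) a) ha)

theorem stabOn {k s d : ℕ} (e : AllOK k s d) {A : Subgroup (Γ K)}
    (hA : A ≤ closure ((fun i => h.xs (Jf s d i)) '' {i | i < 36 - d})) (hP : 2 ^ (36 - d) ≤ Nat.card A) :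
    StabOn h.pr A (h.xs (36 + k)) :=
  haveI := finite_st (D := chevE6) (F := K)
  stabOn_of_tail h.hc e.1 (h.tail e.2.1) (h.tail e.2.2.1) (h.pr_tt k) (fun j hj => by
    have a := e.2.2.2 j hj
    rw [h.pr_W' fun b hb => a.1 b (List.mem_append_right _ hb), h.pr_W' fun b hb => a.1 b (List.mem_append_left _ hb),
      h.W_cj' a]) (h.img e ▸ hA) hP

theorem stab_H (t : Γ K) (ht : (t : chevE6.SteinbergGroup K) ∈ (stS chevE6 K).H) : Stab h.pr t := by
  have k : ∀ k, AllOK k 0 0 → 4 ≤ k → ∀ g, Stab h.pr g → ∀ i : ℕ, Stab h.pr (g * h.xs (36 + k) ^ i) := fun k e hk g hg i => by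
    induction i with
    | zero => simpa
    | succ i ih =>
      rw [pow_succ, ← mul_assoc]
      refine ih.mul (h.stabOn e h.rg_le h.card_range.ge) fun a ha _ => ⟨ha, (h.mem_range _).2 ?_⟩
      refine ((stS chevE6 K).mon_of_mem_H ?_).conj_mem_U (fun r hr => by simpa using hr) ((h.mem_range a).1 ha)
      show x ω _ ∈ _
      rw [x, if_neg (by omega), E62.g, if_neg (by omega)]
      exact (stS_mult chevE6 K).tor_mem_H _
  obtain ⟨i, j, e⟩ := h.exists_pow ht t.2
  rw [show t = h.pr 1 * h.xs (36 + 4) ^ i * h.xs (36 + 5) ^ j from Subtype.ext (by simpa [xs] using e)]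
  exact k 5 ok5 (by decide) _ (k 4 ok4 le_rfl _ (stab_range h.hc 1) i) j

theorem stab_N {k s d : ℕ} (b : Fin 4) (hb : b = k) (e : AllOK k s d) {L L' : List ℕ} (hL : symE6.Orb (νE6 b) L L')
    (hd : L.length = d ∧ d ≤ 36) (hA : ((stS chevE6 K).U {r | Pos r ∧ ¬ InJ (symE6.orb (νE6 b)) r}).subgroupOf (Γ K) ≤
      closure ((fun i => h.xs (Jf s d i)) '' {i | i < 36 - d})) :
    ∃ n : Γ K, (n : chevE6.SteinbergGroup K) ∈ (stS chevE6 K).N ∧ (stS chevE6 K).Mon n (w0 (symE6.orb (νE6 b))) ∧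
      StabOn h.pr (((stS chevE6 K).U {r | Pos r ∧ ¬ InJ (symE6.orb (νE6 b)) r}).subgroupOf (Γ K)) n := by
  have k1 : ∀ l : List (Sm chevE6), (l.map fun i => (stS chevE6 K).n (sm i) 1).prod ∈ (stS chevE6 K).N ∧
      (stS chevE6 K).Mon (l.map fun i => (stS chevE6 K).n (sm i) 1).prod (wd chevE6 (l.map Fin.val)) := fun l => by
    induction l with
    | nil => exact ⟨one_mem _, (stS chevE6 K).mon_one⟩
    | cons i l ih =>
      rw [List.map_cons, List.prod_cons, List.map_cons, wd_cons]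
      exact ⟨mul_mem ((stS chevE6 K).n_mem_N _ one_ne_zero) ih.1, ((stS chevE6 K).mon_n _ one_ne_zero).mul ih.2⟩
  have k2 : (h.xs (36 + k) : chevE6.SteinbergGroup K) = ((NS k).map fun i => (stS chevE6 K).n (sm i) 1).prod := by
    show x ω _ = _
    rw [x, if_neg (by omega), g, Nat.add_sub_cancel_left, if_pos (hb ▸ b.2)]
  refine ⟨_, k2 ▸ (k1 _).1, ?_, h.stabOn e hA (by rw [card_sub, ← hd.1]; exact h.card_rad hL (hd.1 ▸ hd.2))⟩
  rw [k2, ← Sym.w1, w1E6, ← hb,
    (by decide : ∀ b : Fin 4, ![[1], [3], [2, 4], [0, 5]] b = (NS b).map Fin.val)]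
  exact (k1 _).2

include h in
theorem low : MDvd (Γ K) (2 * 2) := by
  haveI := finite_st (D := chevE6) (F := K)
  have e : ∀ {u : List ℕ} (a : ℕ), a < 512 ∧ (∀ i ∈ u, i < 38) ∧ actT (u.map (nthL 0 tabs)) a ≠ a → W h.xt u ≠ 1 :=
    fun {u} a c e => c.2.2 (by
      have := (W_y c.2.1 a).symm.trans (congrArg (· a) ((map_W _ h.pr2 u).symm.trans ((congrArg _ e).trans (map_one _))))
      simpa [c.1] using this)
  have sq : ∀ {i} (hi : i = 36 ∨ i = 37), (⟨_, h.cen hi⟩ : center h.Ec) * ⟨_, h.cen hi⟩ = 1 := fun {i} hi =>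
    Subtype.ext ((pow_two _).symm.trans (h.rel.pow i (by show i < 38; omega)))
  have ha : h.pr (W h.xt [25, 26]) * h.pr (W h.xt [25, 26]) = 1 := by
    rw [← map_mul, ← W_append, h.rel.W_eq (by decide +kernel : D3.eqW 9 ([25, 26] ++ [25, 26]) [] = true)]; simp
  refine fun B _ hB => (four_dvd_closure (sq (.inl rfl)) (sq (.inr rfl)) ?_ ?_ ?_).trans (MDvd.of_stab h.hc ?_
    (stab_of_fold h.gen.fold (stCover _ _) h.hc h.mem_range h.stab_H ?_) ?_ B hB)
  · exact fun c => e (u := [36]) 256 (by decide +kernel) (by simpa using congrArg Subtype.val c)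
  · exact fun c => e (u := [37]) 0 (by decide +kernel) (by simpa using congrArg Subtype.val c)
  · exact fun c => e (u := [36, 37]) 0 (by decide +kernel) (by simpa using congrArg Subtype.val c)
  · have := h.pr.range.card_mul_index
    rw [h.card_range, h.card_Γ, Nat.mul_right_inj (by decide)] at this
    rw [this]; decide
  · refine repsE6.forall_orb (P := fun J => ∃ n : Γ K, (n : chevE6.SteinbergGroup K) ∈ (stS chevE6 K).N ∧
      (stS chevE6 K).Mon n (w0 J) ∧ StabOn h.pr (((stS chevE6 K).U {r | Pos r ∧ ¬ InJ J r}).subgroupOf (Γ K)) n) ?_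
    simp only [List.forall_mem_cons, List.not_mem_nil, false_imp_iff, implies_true, and_true]
    exact ⟨h.stab_N 0 rfl ok0 orbE6_1 (by decide) (h.le_cl (nilp_rad _) 46
        (by rw [symE6.orb_eq3 _ (by decide +kernel)]; decide +kernel) (by decide +kernel)),
      h.stab_N 1 rfl ok1 orbE6_3 (by decide) (h.le_cl (nilp_rad _) 39
        (by rw [symE6.orb_eq3 _ (by decide +kernel)]; decide +kernel) (by decide +kernel)),
      h.stab_N 2 rfl ok2 orbE6_2 (by decide) (h.le_cl (nilp_rad _) 42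
        (by rw [symE6.orb_eq3 _ (by decide +kernel)]; decide +kernel) (by decide +kernel)),
      h.stab_N 3 rfl ok3 orbE6_0 (by decide) (h.le_cl (nilp_rad _) 56
        (by rw [symE6.orb_eq3 _ (by decide +kernel)]; decide +kernel) (by decide +kernel))⟩
  · rintro _ (rfl | rfl)
    exacts [⟨sq (.inl rfl), _, _, ha, h.z1, rfl⟩, ⟨sq (.inr rfl), _, _, ha, h.z2, rfl⟩]

end E62.F4

end Cfsg.Agent.Known
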