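import Cfsg.Agent.Known.PTail
import Cfsg.Agent.Mult.Tab
import Cfsg.Agent.Chev.Zker
import Cfsg.Agent.Chev.LangSt
import Cfsg.Agent.S1062

/-! The Steinberg presentation of `F₄(2)` as a list of relators (helper25): `F42.rels`, `hg`, `lifts`, `equiv`;
`SBnd.of_split` (no stem extension of exponent `m`), `sb_odd`. -/

set_option autoImplicit false
set_option maxRecDepth 100000

namespace Cfsg.Agent.Known

open Cfsg.Agent.Spor Subgroup Cfsg.Lie Cfsg.Agent.Chev

theorem SBnd.of_split {G : Type} [Group G] {u m : ℕ} (h0 : SBnd G (u * m) [])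
    (H : ∀ (Γ : Type) [Group Γ] (σ : Γ →* G), Schur.IsCentralExt σ → (∀ z ∈ σ.ker, z ^ m = 1) →
      ∃ ψ : G →* Γ, ∀ x, σ (ψ x) = x) : SBnd G u [] := by
  refine sbnd_nil fun Γ _ σ hσ z hz => ?_
  obtain ⟨cs, h1, h2⟩ := h0 Γ σ hσ
  cases h1
  let Z : Subgroup Γ :=
    { carrier := {z | z ∈ σ.ker ∧ z ^ u = 1}
      one_mem' := ⟨one_mem _, one_pow _⟩
      mul_mem' := fun {x y} hx hy => ⟨mul_mem hx.1 hy.1, by
        rw [Commute.mul_pow (mem_center_iff.1 (hσ.2.1 hy.1) x), hx.2, hy.2, one_mul]⟩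
      inv_mem' := fun hx => ⟨inv_mem hx.1, by rw [inv_pow, hx.2, inv_one]⟩ }
  haveI : Z.Normal := Schur.normal_of_le_center fun _ h => hσ.2.1 h.1
  let σ' : Γ ⧸ Z →* G := QuotientGroup.lift Z σ fun _ h => h.1
  have hc : σ'.ker ≤ center _ := fun x hx => by
    obtain ⟨x, rfl⟩ := QuotientGroup.mk_surjective x
    refine mem_center_iff.2 fun y => ?_
    obtain ⟨y, rfl⟩ := QuotientGroup.mk_surjective y
    exact congrArg QuotientGroup.mk (mem_center_iff.1 (hσ.2.1 hx) y)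
  obtain ⟨ψ, h1⟩ := H _ σ' ⟨fun x => let ⟨y, hy⟩ := hσ.1 x; ⟨y, hy⟩, hc⟩ fun x hx => by
    obtain ⟨x, rfl⟩ := QuotientGroup.mk_surjective x
    refine (QuotientGroup.eq_one_iff (x ^ m)).2 ⟨pow_mem hx m, ?_⟩
    rw [← pow_mul, mul_comm]
    simpa using h2 x hx
  have h3 : commutator (Γ ⧸ Z) ≤ ψ.range := commutator_le.2 fun u _ v _ => by
    have k : ∀ u, (ψ (σ' u))⁻¹ * u ∈ center _ := fun u => hc (by simp [h1])
    have := Schur.commutatorElement_mul_central (x := ψ (σ' u)) (y := ψ (σ' v)) (k u) (k v)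
    rw [mul_inv_cancel_left, mul_inv_cancel_left, ← map_commutatorElement] at this
    exact ⟨_, this.symm⟩
  have := mem_map_of_mem (QuotientGroup.mk' Z) (hσ.2.2 hz)
  rw [map_commutator_eq] at this
  obtain ⟨x, hx⟩ := h3 (commutator_mono le_top le_top this)
  have h4 : x = 1 := by rw [← h1 x, hx]; exact hz
  exact ((QuotientGroup.eq_one_iff z).1 (hx.symm.trans (h4 ▸ map_one ψ))).2

theorem ev_invol {H : Type*} [Group H] {h : ℕ → H} {l : List ℕ} (e : ∀ a ∈ l, h a * h a = 1) : ev h l = (W h l)⁻¹ := by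
  induction l with
  | nil => simp
  | cons a l ih =>
    rw [ev_cons, W_cons, mul_inv_rev, ih fun b hb => e b (List.mem_cons_of_mem _ hb),
      inv_eq_of_mul_eq_one_right (e a List.mem_cons_self)]

namespace F42

def nz (w : List (ℕ × ZMod 2)) : List ℕ := (w.filter fun p => p.2 ≠ 0).map (·.1)
def T (r s : ℕ) : List ℕ := nz (commW chevF4 r s 1 1)
def rel (p : ℕ × ℕ) : List ℕ := if p.1 = p.2 then [p.1, p.1] else T p.1 p.2 ++ [p.1, p.2, p.1, p.2]
def prs : List (ℕ × ℕ) := (List.range 48).flatMap fun r => ((List.range 48).filter fun s => r + s ≠ 47).map fun s => (r, s)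
def rels : List (List ℕ) := prs.map rel

theorem mem_prs {r s : ℕ} : (r, s) ∈ prs ↔ r < 48 ∧ s < 48 ∧ r + s ≠ 47 := by simp [prs]

theorem chk : ∀ r : Rt chevF4, chevF4.neg r + r = 47 ∧ ∀ s : Rt chevF4, (∀ c ∈ chevF4.commTerms r s, c.1 < 48) ∧
    nz (commW chevF4 r s 0 0) = [] ∧ nz (commW chevF4 r s 0 1) = [] ∧ nz (commW chevF4 r s 1 0) = [] := by
  decide +kernel

theorem T_lt {r s : ℕ} (hr : r < 48) (hs : s < 48) : ∀ a ∈ T r s, a < 48 := fun a ha => by
  obtain ⟨p, hp, rfl⟩ := List.mem_map.1 ha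
  obtain ⟨c, hc, rfl⟩ := List.mem_map.1 (List.mem_of_mem_filter hp)
  exact ((chk ⟨r, hr⟩).2 ⟨s, hs⟩).1 c hc

variable {H : Type*} [Group H]

theorem gw {x : Rt chevF4 → ZMod 2 → H} {h : ℕ → H} (hx : ∀ r t, x r t = if t = 0 then 1 else h r) (r s : Rt chevF4)
    (t u : ZMod 2) : gword x (commW chevF4 r s t u) = W h (nz (commW chevF4 r s t u)) := by
  have : ∀ p ∈ commW chevF4 r s t u, p.1 < chevF4.nroots :=
    List.forall_mem_map.2 fun c hc => ((chk r).2 s).1 c hc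
  generalize commW chevF4 r s t u = w at this
  induction w with
  | nil => rfl
  | cons p w ih =>
    have e := ih fun q hq => this q (List.mem_cons_of_mem _ hq)
    rw [gword] at e
    rw [gword, List.map_cons, List.prod_cons, e, dif_pos (this p List.mem_cons_self), hx]
    by_cases k : p.2 = 0 <;> simp [nz, k]

theorem rel_iff {h : ℕ → H} (e : ∀ a < 48, h a * h a = 1) {r s : ℕ} (hr : r < 48) (hs : s < 48) (n : s ≠ r) :
    ev h (rel (r, s)) = 1 ↔ h s * h r = h r * h s * W h (T r s) := by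
  rw [rel, if_neg n.symm, ev_append, ev_invol fun a ha => e a (T_lt hr hs a ha), mul_inv_eq_one, eq_comm (b := _ * W h _),
    ← eq_inv_mul_iff_mul_eq, mul_inv_rev, inv_eq_of_mul_eq_one_right (e r hr), inv_eq_of_mul_eq_one_right (e s hs), eq_comm]
  simp [mul_assoc]

theorem cases2 : ∀ t : ZMod 2, t = 0 ∨ t = 1 := by decide

/-- the letters. -/
def lt (X : Sys chevF4 (ZMod 2) H) (i : ℕ) : H := if h : i < chevF4.nroots then X.x ⟨i, h⟩ 1 else 1

theorem lt_eq (X : Sys chevF4 (ZMod 2) H) (r : Rt chevF4) (t : ZMod 2) : X.x r t = if t = 0 then 1 else lt X r := by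
  rcases cases2 t with rfl | rfl
  · simp
  · rw [if_neg one_ne_zero, lt, dif_pos r.2]

theorem lt_sq (X : Sys chevF4 (ZMod 2) H) : ∀ a < 48, lt X a * lt X a = 1 := fun a ha => by
  rw [lt, dif_pos (show a < chevF4.nroots from ha), ← X.add]; exact X.x_zero _

theorem lt_comm (X : Sys chevF4 (ZMod 2) H) {r s : ℕ} (hr : r < 48) (hs : s < 48) (n : s ≠ r) (n' : r + s ≠ 47) :
    lt X s * lt X r = lt X r * lt X s * W (lt X) (T r s) := by
  have := X.comm ⟨r, hr⟩ ⟨s, hs⟩ (fun e => n (congrArg Fin.val e)) (fun e => n' (by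
    have h1 : s = chevF4.neg r := congrArg Fin.val e
    have h2 : chevF4.neg r + r = 47 := (chk ⟨r, hr⟩).1
    omega)) 1 1
  rwa [gw (lt_eq X), lt_eq, lt_eq] at this

theorem hg (X : Sys chevF4 (ZMod 2) H) : ∀ r ∈ rels, ev (lt X) r = 1 := List.forall_mem_map.2 fun ⟨r, s⟩ hp => by
  obtain ⟨hr, hs, n'⟩ := mem_prs.1 hp
  rcases eq_or_ne s r with rfl | n
  · simpa [rel] using lt_sq X s hs
  · exact (rel_iff (lt_sq X) hr hs n).2 (lt_comm X hr hs n n')

theorem exists_sys {h : ℕ → H} (hr : ∀ r ∈ rels, ev h r = 1) : ∃ X : Sys chevF4 (ZMod 2) H, ∀ r, X.x r 1 = h r := by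
  have k := fun r s hp => List.forall_mem_map.1 hr (r, s) (mem_prs.2 hp)
  have e : ∀ a < 48, h a * h a = 1 := fun a ha => by simpa [rel] using k a a ⟨ha, ha, by omega⟩
  refine ⟨⟨fun r t => if t = 0 then 1 else h r, fun r t u => ?_, fun r s n n' t u => ?_⟩, fun _ => rfl⟩
  · rcases cases2 t with rfl | rfl <;> rcases cases2 u with rfl | rfl
    exacts [by simp, by simp, by simp, (e r r.2).symm]
  · rw [gw fun _ _ => rfl]
    obtain ⟨-, c1, c2, c3⟩ := (chk r).2 s
    rcases cases2 t with rfl | rfl <;> rcases cases2 u with rfl | rfl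
    exacts [by simp [c1], by simp [c2], by simp [c3], (rel_iff e r.2 s.2 (Fin.val_ne_of_ne n)).1
      (k r s ⟨r.2, s.2, fun e => n' (Fin.ext (by have := (chk r).1; show _ = chevF4.neg r; omega))⟩)]

theorem bij (F : Type*) [Field F] [Finite F] : Function.Bijective (grS chevF4 F).lift :=
  ⟨(MonoidHom.ker_eq_bot_iff _).1 (by rw [Mult.ker_lift_grS, (Mult.mult_of_finite (scS chevF4 F)).center_eq (scCover _ F)
    Mult.scS_U_univ, zkerF4_eq_bot, Subgroup.map_bot]), (Mult.isCentralExt_lift (grCover _ F) (grS_U_univ _ F)).surj⟩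

abbrev G := chevF4.group (ZMod 2)

theorem exists_hom (X : Sys chevF4 (ZMod 2) H) : ∃ ψ : G →* H, ∀ r t, ψ ((grS chevF4 (ZMod 2)).x r t) = X.x r t :=
  let e := MulEquiv.ofBijective _ (bij (ZMod 2))
  ⟨X.lift.comp e.symm.toMonoidHom, fun r t => (congrArg X.lift (e.symm_apply_eq.2 ((grS _ _).lift_scGen r t).symm)).trans
    (X.lift_scGen r t)⟩

theorem lifts : Lifts (lt (grS chevF4 (ZMod 2))) 48 rels := fun _ _ _ hr => by
  obtain ⟨X, hX⟩ := exists_sys hr
  obtain ⟨ψ, e⟩ := exists_hom X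
  exact ⟨ψ, fun i hi => by rw [lt, dif_pos (show i < chevF4.nroots from hi), e, hX]⟩

theorem card : Nat.card G = 2 ^ 24 * 197358525 := S1062.result (ZMod.card 2)

theorem equiv {F : Type*} [Field F] [Fintype F] (hF : Fintype.card F = 2) : Nonempty (G ≃* chevF4.group F) := by
  let e := FiniteField.ringEquivOfCardEq ((ZMod.card 2).trans hF.symm)
  obtain ⟨ψ, h⟩ := exists_hom ((grS chevF4 F).comap e.toRingHom)
  haveI : Finite G := Nat.finite_of_card_ne_zero (by rw [card]; decide)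
  refine ⟨MulEquiv.ofBijective ψ (Function.Surjective.bijective_of_nat_card_le ?_ (card.trans (S1062.result hF).symm).le)⟩
  rw [← MonoidHom.range_eq_top, eq_top_iff, ← grS_U_univ]
  exact Sys.U_le.2 fun r _ t => ⟨_, (h r (e.symm t)).trans (congrArg ((grS chevF4 F).x r) (e.apply_symm_apply t))⟩

theorem sb_odd : SBnd G (2 ^ 24) [] :=
  haveI : Finite G := Nat.finite_of_card_ne_zero (by rw [card]; decide)
  (SBnd.of_card card).of_split fun _ _ σ E hm => by
    obtain ⟨Z, hZ⟩ := Mult.lifts_of_pow E (grCover chevF4 (ZMod 2)) (p := 2) rfl fun a ha =>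
      ⟨98679263, by rw [show 2 * 98679263 = 197358525 + 1 from rfl, pow_succ, hm a ha, one_mul]⟩
    obtain ⟨ψ, h⟩ := exists_hom Z
    refine ⟨ψ, fun x => ?_⟩
    have : (grS chevF4 (ZMod 2)).U Set.univ ≤ (σ.comp ψ).eqLocus (MonoidHom.id _) :=
      Sys.U_le.2 fun r _ t => (congrArg σ (h r t)).trans (hZ r t)
    exact this (grS_U_univ chevF4 (ZMod 2) ▸ mem_top x)

end F42

end Cfsg.Agent.Known
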