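import Cfsg.Agent.Known.Fi24X
import Cfsg.Agent.Known.Pack
import Cfsg.Agent.Known.PTail

/-! `Cfsg.Spor.Fi24'` on the 306936 transpositions (helper25): words of even length `exw`, the base `base`,
`of_sub` (subgroups with trivial multiplier). -/

set_option autoImplicit false

namespace Cfsg.Agent.Known.Fi24U

open Cfsg.Agent.Comp Fi24X
open Cfsg.Agent.Spor hiding allL

noncomputable scoped instance inst : MulAction Cfsg.Spor.Fi24 ℕ := actOf Fi24M.φ

scoped instance fin : Finite Cfsg.Spor.Fi24' := Nat.finite_of_card_ne_zero (by rw [Fi24M.card']; decide)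

noncomputable def y (j : ℕ) : Cfsg.Spor.Fi24 := Fischer.F24.T (cf.pt j)

theorem hy : ActBy y (PtN 306936) cf.act := by
  rintro i _ a _ rfl ⟨rfl, ha⟩
  exact ⟨(fm0.hy i a ha).symm, Fi24M.rep.lt _ ha⟩

theorem ε_W (w : List ℕ) : Fi24M.ε (W y w) = (-1) ^ w.length := by
  induction w with
  | nil => simp
  | cons a w ih =>
    rw [W_cons, map_mul, ih, Fischer.F24.ε_mem (x := y a) (fm0.hD ▸ ⟨_, fm0.pt_lt a, rfl⟩), List.length_cons, pow_succ']

theorem exw (ws : List (List ℕ)) (h : allL ws (fun w => Nat.beq (Nat.mod (lenL w) 2) 0) = true) :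
    ∃ x : ℕ → Cfsg.Spor.Fi24', ActBy x (PtN 306936) fun i => actW cf.act (nthL [] ws i) :=
  ⟨fun i => ⟨W y (nthL [] ws i), by
    rw [Fi24M.commutator_eq, MonoidHom.mem_ker, ε_W]
    rcases nthL_mem_or [] ws i with e | e
    · exact Even.neg_one_pow (Nat.even_iff.2 (lenL_eq _ ▸ nbeq.1 (allL_iff.1 h _ e)))
    · rw [e]; rfl⟩, by rintro i _ a y rfl h; exact hy.words ws rfl h⟩

theorem base : IsBase Cfsg.Spor.Fi24' (PtN 306936) Fi24M.pts :=
  IsBase.subgroup (fun _ h => Fi24M.eq_one_of_fix fun x hx =>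
    h _ (by revert x; decide) _ ⟨rfl, by revert x; decide⟩) _

theorem of_sub {K : Type} [Group K] [IsSimpleGroup K] {ρ : K →* Cfsg.Spor.Fi24} (hρ : Function.Injective ρ)
    (h : SBnd K 1 []) {N n : ℕ} (hN : Nat.card K = N) (hn : 2 < N ∧ n * N = 1255205709190661721292800) :
    SBnd Cfsg.Spor.Fi24' n [] := by
  have h1 : ∀ a, ρ a ∈ commutator Cfsg.Spor.Fi24 := fun a => by
    rw [Fi24M.commutator_eq]
    rcases (Fi24M.ε.comp ρ).normal_ker.eq_bot_or_eq_top with e | e
    · have := Nat.card_le_card_of_injective _ ((MonoidHom.ker_eq_bot_iff _).1 e)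
      rw [hN, Nat.card_eq_fintype_card, Fintype.card_units_int] at this
      omega
    · exact (e ▸ Subgroup.mem_top a : a ∈ (Fi24M.ε.comp ρ).ker)
  have h2 : Function.Injective (ρ.codRestrict _ h1) := fun _ _ e => hρ (congrArg Subtype.val e)
  have := h.of_sub h2 (n := n) (by
    have h3 := (ρ.codRestrict _ h1).range.index_mul_card
    rw [← Nat.card_congr (MonoidHom.ofInjective h2).toEquiv, hN, Fi24M.card', ← hn.2] at h3
    exact Nat.eq_of_mul_eq_mul_right (by omega) h3)
  rwa [mul_one] at this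

end Cfsg.Agent.Known.Fi24U
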