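import Cfsg.Agent.Known.L32Up

/-! The Schur multiplier of the model of L32 (generated certificate, helper25): `mult`. -/

set_option maxRecDepth 100000
set_option exponentiation.threshold 100000

namespace Cfsg.Agent.Known.L32T

open Cfsg.Agent.Spor

noncomputable def n2_0 : Net :=
  Net.cons 1 (nat_lit 0x10) <|
  Net.cons 2 (nat_lit 0x20) <|
  Net.cons 4 (nat_lit 0xc) <|
  Net.cons 2 (nat_lit 0x10) <|
  Net.cons 1 (nat_lit 0x45) <|
  Net.nil

noncomputable def n2_1 : Net :=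
  Net.cons 1 (nat_lit 0x4) <|
  Net.cons 2 (nat_lit 0x10) <|
  Net.cons 4 (nat_lit 0x6) <|
  Net.cons 2 (nat_lit 0x13) <|
  Net.cons 1 (nat_lit 0x51) <|
  Net.nil

noncomputable def n2_2 : Net :=
  Net.cons 1 (nat_lit 0x10) <|
  Net.cons 2 (nat_lit 0x10) <|
  Net.cons 4 (nat_lit 0x6) <|
  Net.cons 2 (nat_lit 0x13) <|
  Net.cons 1 (nat_lit 0x45) <|
  Net.nil

noncomputable def n2_3 : Net :=
  Net.cons 2 (nat_lit 0x20) <|
  Net.cons 4 (nat_lit 0x6) <|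
  Net.cons 2 (nat_lit 0x23) <|
  Net.cons 1 (nat_lit 0x55) <|
  Net.nil

noncomputable def nets2 : List Net := [n2_0, n2_1, n2_2, n2_3]

theorem ok2 : netsOk 8 nets2 = true := by decide +kernel

theorem pl2_3 : ∀ p < 3, chkPl nets2 8 3 L32P.rels p = true :=
  forall_lt_add (a := 0) (b := 3) (fun _ h => absurd h (Nat.not_lt_zero _)) (by decide +kernel)

theorem hP2 : ∀ r ∈ L32P.rels, ev (PP nets2) r = 1 := ev_eq_one_of_planes ok2 (by decide) pl2_3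

noncomputable def cs2 : List (ℕ × ℕ) := [
  ((nat_lit 0x66),
  (nat_lit 0x0)),
  ((nat_lit 0x5c),
  (nat_lit 0x0)),
  ((nat_lit 0xb8),
  (nat_lit 0x0)),
  ((nat_lit 0xe1),
  (nat_lit 0x0))]

def es2 : List ℕ := [1,1,1,1,0,0,1,0,0]

theorem v2_0 : ∀ r ∈ (List.drop 0 (L32P.rels.zip es2)), ev (PP nets2) r.1 = 1 → ev (mM 2 nets2 cs2) r.1 = zM 2 8 ^ r.2 :=
  ev_of_chkVolt isAdd2 ok2 (by decide +kernel)

theorem cov2 : Cov 4 L32P.rels 2 es2 (mM 2 nets2 cs2) (zM 2 8) :=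
  cov_of_volt ok2 (by decide) hP2 (by decide +kernel) v2_0 4

theorem mult : HasCyclicSchurMultiplier L32P.G 2 :=
  cyc_of_bnd sb (mdvd_cov1 L32P.lifts L32P.hg L32P.hl cov2 [1, 2, 0, 0, 0, 0, 2, -2, 0] (by decide +kernel))

end Cfsg.Agent.Known.L32T
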