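import Cfsg.Agent.Known.L32Tab
import Cfsg.Agent.Known.Pack

/-! Upper bound for the Schur multiplier of `L32P.G` (generated certificate, helper25): `sb`. -/

set_option maxRecDepth 100000

namespace Cfsg.Agent.Known.L32T

open Cfsg.Agent.Comp

def D2 : PcData := ⟨1, 3,
  [[],[2],[]],
  [[],[[1,2]],[[2],[2]]],
  []⟩

noncomputable def T2_0 : List ((ℕ × ℕ × List ℕ × List ℕ) × List (ℕ × ℕ)) := decTests
  [nat_lit 0xc6020004,nat_lit 0x3e0f901708020003,nat_lit 0x95020004,nat_lit 0x1e03c401408030003,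
  nat_lit 0xb010004,nat_lit 0x70f08499504030005]

theorem hT2_0 : relOK D2 12 13 T2_0 = true := by decide +kernel

noncomputable def L2 : LinCert := LinCert.dec []
  [nat_lit 0x4723c0508010003,nat_lit 0x3d0f500a08020003,nat_lit 0x753ac0408010003]
  [(nat_lit 0x7a3d80b07020003, 2, nat_lit 0x602010001)]
  [nat_lit 0xa02020001,nat_lit 0x402010001,nat_lit 0x502010001,nat_lit 0xb02020001,nat_lit 0x1502030001,
  nat_lit 0x51ca03020003]

theorem hL2 : linOK D2 12 ([T2_0].flatMap fun c => c.map fun s => s.2) L2 = true := by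
  decide +kernel

def xw2 : List (List ℕ) := [[3,0],[1,2,3,0,2,1,0],[3]]

noncomputable def a2 (i : ℕ) : ℕ → ℕ := actW act (nthL [] xw2 i)

theorem r2_0 : ∀ j < 3, D2.relJ (eqB a2 [3,0,1]) j = true :=
  forall_lt_add (a := 0) (b := 3) (fun _ h => absurd h (Nat.not_lt_zero _)) (by decide +kernel)

theorem f2' : D2.relF (eqB a2 [3,0,1]) = true := by decide +kernel

theorem o2 : D2.ordOK a2 [[0],[2],[0,1]] [3,1] 7 6 = true := by decide +kernel

theorem sb2 : SBnd L32P.G 21 [2] :=
  sbnd_of_act (isCanon_PtN 7) (hy.words xw2) base D2 (by decide +kernel) r2_0 f2' L32P.card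
    (by decide +kernel) (exists_PtN (by decide +kernel)) o2 (List.forall_mem_cons.2 ⟨hT2_0, List.forall_mem_nil _⟩) hL2 (by decide +kernel)

def xwc : List (List ℕ) := [[2,3],[3,1,2]]

theorem sb : SBnd L32P.G 1 [2] :=
  ((sb2.append
    (sbnd_of_cyclic (isCanon_PtN 7) (hy.words xwc) base 0 3 0 (by norm_num) (b := 0) ⟨_, rfl, by decide⟩
      (by decide +kernel) L32P.card (m := 56) (by decide +kernel))).append
    (sbnd_of_cyclic (isCanon_PtN 7) (hy.words xwc) base 1 7 0 (by norm_num) (b := 0) ⟨_, rfl, by decide⟩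
      (by decide +kernel) L32P.card (m := 24) (by decide +kernel))).of_eq (by decide +kernel) rfl

end Cfsg.Agent.Known.L32T
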