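import Cfsg.Agent.Known.CovM
import Cfsg.Agent.Known.McLUp
import Cfsg.Agent.Known.LyKUp
import Cfsg.Agent.Spor.LyC

/-! The Schur multiplier of the Lyons group (helper25), from the centralisers `2·A₁₁` and `3·McL`. -/

set_option maxRecDepth 100000

namespace Cfsg.Agent.Known.LyMul

open Cfsg.Agent.Spor LyC

theorem cent {z r N n : ℕ} (p q : List ℕ)
    (h : Ct.Eqs Y [(p ++ [z], [z] ++ p), (q ++ [z], [z] ++ q), (q ++ p, (p ++ q) ++ [z])]) (hr : r.Prime)
    (hz : orderOf (Y z) = r) {U : Type} [Group U] [IsSimpleGroup U]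
    (hZ : Nat.card (Subgroup.center (Subgroup.centralizer {Y z})) = r ∧
      Nonempty (Subgroup.centralizer {Y z} ⧸ Subgroup.center (Subgroup.centralizer {Y z}) ≃* U))
    (hU : SBnd U 1 [r]) (hN : Nat.card U = N) (h0 : N ≠ 0) (hN' : ¬ N.Prime)
    (hG : 5859000000 * 8835156 = n * (r * N)) : SBnd Cfsg.Spor.Ly n [] := by
  simp only [Ct.Eqs, List.forall_mem_cons, ev_append, ev_one] at h
  haveI : Finite U := Nat.finite_of_card_ne_zero (hN ▸ h0)
  refine SBnd.cent (fun e => hr.ne_one (by rw [← hz, e, orderOf_one])) h.1 h.2.1 h.2.2.1 hr hZ.1 hZ.2 ?_ hU hN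
    (LyG.main.2.2.2.2.1.trans hG)
  refine Group.isPerfect_def.2 ((IsSimpleGroup.eq_bot_or_eq_top_of_normal _ inferInstance).resolve_left fun e => hN' ?_)
  haveI : IsMulCommutative U := ⟨⟨fun a b => commutatorElement_eq_one_iff_mul_comm.1
    (Subgroup.mem_bot.1 (e ▸ Subgroup.commutator_mem_commutator (Subgroup.mem_top a) (Subgroup.mem_top b)))⟩⟩
  letI : CommGroup U := { mul_comm := mul_comm' }
  exact hN ▸ IsSimpleGroup.prime_card

theorem sb2 : SBnd Cfsg.Spor.Ly 1296826875 [] := by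
  haveI := alternatingGroup.isSimpleGroup (α := Fin 11) (by simp)
  exact cent [6] [0, 0] (Ct.eqs_K LyA.pa (by decide) (by decide +kernel)) Nat.prime_two ord2 ⟨struct2.1, struct2.2.1⟩
    (sbnd_alt (by decide)) (N := 19958400) (by rw [nat_card_alternatingGroup]; simp [Nat.factorial]) (by decide)
    (by norm_num) (by decide)

theorem sb3 : SBnd Cfsg.Spor.Ly 19212250 [] := by
  have e := eqs.sub cent3.ge
  obtain ⟨f⟩ := McLT.equiv
  have : IsSimpleGroup (Leech.St2 Leech.vv Leech.uu) := Leech.simple_McL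
  have : IsSimpleGroup McLP.G := (Leech.equivMcL.trans f).symm.isSimpleGroup
  exact cent [1, 8, 6, 1, 8, 17, 0, 0] [8, 0, 5, 6, 17, 14, 5, 3, 4, 1, 3, 3, 0, 2, 1]
    (Ct.eqs_K LyA.pa (by decide) (by decide +kernel)) Nat.prime_three ord3 (ord3 ▸ Ct.cent_quot
      (center_eq_bot_of_card McLP.card (by decide) (by norm_num))
      (eqs.comm (xs := [17]) (by decide +kernel)) (Ct.let_ne LyA.pa (by decide) inj (by decide +kernel))
      (eqs.pow 17 5 (by decide +kernel)) (by rw [ord3]; decide) fun h => e.quot_lifts _ (qs := [21])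
        (xs := [31, 32, 33, 34, 35, 36, 37]) McLP.lifts le_rfl (Ct.subG_top cent3) (by decide +kernel) h)
    McLT.sb McLP.card (by decide) (by norm_num) (by decide)

theorem pr {p m : ℕ} (hp : p.Prime) (h : 5859000000 * 8835156 = p * m) : SBnd Cfsg.Spor.Ly m [] :=
  SBnd.of_prime hp (LyG.main.2.2.2.2.1.trans h)

theorem sb : SBnd Cfsg.Spor.Ly 1 [] :=
  (((((sb2.append sb3).append (SBnd.of_sub inj LyKT.sb LyG.main.1)).append
    (pr (p := 37) (m := 1399058892000000) (by norm_num) (by decide))).append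
    (pr (p := 67) (m := 772614612000000) (by norm_num) (by decide)))).of_eq (by decide +kernel) rfl

end Cfsg.Agent.Known.LyMul
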