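import Cfsg.Agent.Known.M12Up

/-! The Schur multiplier of the model of M12 (generated certificate, helper25): `mult`. -/

set_option maxRecDepth 100000
set_option exponentiation.threshold 100000

namespace Cfsg.Agent.Known.M12T

open Cfsg.Agent.Spor

noncomputable def cs2 : List (ℕ × ℕ) := [
  ((nat_lit 0x6),
  (nat_lit 0x0)),
  ((nat_lit 0x6),
  (nat_lit 0x0)),
  ((nat_lit 0x5),
  (nat_lit 0x0)),
  ((nat_lit 0x5),
  (nat_lit 0x0)),
  ((nat_lit 0x0),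
  (nat_lit 0x0)),
  ((nat_lit 0xb80),
  (nat_lit 0x0)),
  ((nat_lit 0x140),
  (nat_lit 0x0)),
  ((nat_lit 0x840),
  (nat_lit 0x0))]

def es2 : List ℕ := [0,0,0,0,0,0,0,0,0,0,1,0,0,0,0,0,0,0,0]

theorem v2_0 : ∀ r ∈ (List.drop 0 (M12P.rels.zip es2)), ev (PP M12P.nets) r.1 = 1 → ev (mM 2 M12P.nets cs2) r.1 = zM 2 12 ^ r.2 :=
  ev_of_chkVolt isAdd2 M12P.ok (by decide +kernel)

theorem cov2 : Cov 8 M12P.rels 2 es2 (mM 2 M12P.nets cs2) (zM 2 12) :=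
  cov_of_volt M12P.ok (by decide) M12P.hP (by decide +kernel) v2_0 8

theorem mult : HasCyclicSchurMultiplier M12P.G 2 :=
  cyc_of_bnd sb (mdvd_cov1 M12P.lifts M12P.hg M12P.hl cov2 [1, 0, 7, 0, 0, 0, 16, -1, 8, 0, -1, 0, 8, -14, 0, -1, 0, 0, 1] (by decide +kernel))

end Cfsg.Agent.Known.M12T
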