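import Cfsg.Agent.Known.PTail2
import Cfsg.Agent.Spor.Cent2

/-! Schur multiplier certificates checked with big matrices (helper25): `rel_of_eqs`, `card_ge_of_cosets`,
`not_mem_of_mat`. -/

set_option autoImplicit false

namespace Cfsg.Agent.Known

open Cfsg.Agent.Comp Subgroup
open Cfsg.Agent.Spor hiding allL

theorem W_eq_ev {G : Type*} [Group G] (x : ℕ → G) (w : List ℕ) : W x w = ev x w.reverse := by
  induction w with
  | nil => rfl
  | cons a w ih => rw [W_cons, ih, List.reverse_cons, ev_append, ev_one]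

/-- translation of equations. -/
def trE (W3 : List (List ℕ)) (E : List (List ℕ × List ℕ)) : List (List ℕ × List ℕ) :=
  E.map fun e => (renW W3 e.1.reverse, renW W3 e.2.reverse)

def exW (xe : List Ex) (w : List ℕ) : List Ex :=
  List.rec [] (fun x _ ih => List.rec [xe.getD x (.lt 0)] (fun e _ _ => [.mul e (xe.getD x (.lt 0))]) ih) w

def exE (xe : List Ex) (E : List (List ℕ × List ℕ)) : List (Ex × List Ex) :=
  E.map fun e => ((exW xe e.1).headD (.lt 0), exW xe e.2)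

theorem rel_of_eqs {G : Type} [Group G] {Y : ℕ → G} {W3 : List (List ℕ)} {E : List (List ℕ × List ℕ)}
    (h : Ct.Eqs Y (trE W3 E)) (D : PcData)
    (hc : band (allLt D.n (D.relJ fun u v => E.contains (u, v))) (D.relF fun u v => E.contains (u, v)) = true) :
    D.Rel (renG Y W3) := by
  rw [band_eq, Bool.and_eq_true, allLt_iff] at hc
  refine D.rel_of_eq (fun u v e => ?_) hc.1 hc.2
  rw [W_eq_ev, W_eq_ev, ev_renG, ev_renG]
  exact h _ (List.mem_map_of_mem (List.contains_iff_mem.1 e))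

theorem eqs_trE {G : Type} [Group G] {D : BP} {ρ : G →* (Matrix (Fin D.K) (Fin D.K) (ZMod D.p))ˣ} {As : List ℕ} {n : ℕ}
    {Y : ℕ → G} (h : MAct D ρ As n Y) {xe : List Ex} {E : List (List ℕ × List ℕ)}
    (hl : band (chkLet (List.range n) ((exE xe E).map fun e => e.1.w ++ Ct.ow e.2))
      (decide (trE (xe.map Ex.w) E = (exE xe E).map fun e => (e.1.w, Ct.ow e.2))) = true)
    (hc : Spor.allL (exE xe E) (fun e => Nat.beq (D.evE As e.1) (Ct.evO D As e.2)) = true) :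
    Ct.Eqs Y (trE (xe.map Ex.w) E) := by
  rw [band_eq, Bool.and_eq_true, decide_eq_true_eq] at hl
  exact hl.2 ▸ Ct.eqs_M h hl.1 hc

theorem eqs_trE_append {G : Type} [Group G] {Y : ℕ → G} {W3 : List (List ℕ)} {E E' : List (List ℕ × List ℕ)}
    (h : Ct.Eqs Y (trE W3 E)) (h' : Ct.Eqs Y (trE W3 E')) : Ct.Eqs Y (trE W3 (E ++ E')) := by
  rw [trE, List.map_append]; exact h.append h'

theorem card_ge_of_cosets {G : Type*} [Group G] [Finite G] {H R V : Subgroup G} (hR : R ≤ H) (hV : R ≤ V) (a : ℕ → G)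
    (n : ℕ) (ha : ∀ i < n, a i ∈ H) (hn : ∀ i < n, ∀ j < i, (a j)⁻¹ * a i ∉ V) : n * Nat.card R ≤ Nat.card H := by
  have := Nat.card_le_card_of_injective (fun p : Fin n × R => (⟨a p.1 * p.2, mul_mem (ha _ p.1.2) (hR p.2.2)⟩ : H))
    fun p q e => by
      have e1 : a p.1 * p.2 = a q.1 * q.2 := congrArg Subtype.val e
      have e2 : ∀ p q : Fin n × R, a p.1 * p.2 = a q.1 * q.2 → ¬ (p.1 : ℕ) < q.1 := fun p q e h => hn _ q.1.2 _ h (by
        rw [show (a p.1)⁻¹ * a q.1 = p.2 * q.2⁻¹ by rw [inv_mul_eq_iff_eq_mul, ← mul_assoc, e]; simp]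
        exact hV (mul_mem p.2.2 (inv_mem q.2.2)))
      have e3 : p.1 = q.1 := Fin.ext (le_antisymm (not_lt.1 (e2 q p e1.symm)) (not_lt.1 (e2 p q e1)))
      exact Prod.ext e3 (Subtype.ext (mul_left_cancel (e3 ▸ e1)))
  simpa using this

theorem not_mem_of_mat {G : Type} [Group G] {D : BP} {ρ : G →* (Matrix (Fin D.K) (Fin D.K) (ZMod D.p))ˣ} {As : List ℕ}
    {n : ℕ} {Y : ℕ → G} (h : MAct D ρ As n Y) {E : ℕ} (hE : D.Good E) {V : Subgroup G}
    (hV : ∀ v ∈ V, (ρ v).val * D.bM E = D.bM E * ((ρ v).val * D.bM E)) {w : List ℕ} (hw : ∀ x ∈ w, x < n)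
    (hc : force (D.appB As w E) (fun A => Nat.beq A (D.mulB E A)) = false) : ev Y w ∉ V := fun hv => by
  have h1 := h.ok.appB w hE
  have h2 := BP.mulB_spec h.ok.ok hE h1.1
  have h3 := hV _ hv
  rw [h.map hw, ← h1.2, ← h2.2] at h3
  rw [force_eq, ← BP.bM_inj h.ok.ok h1.1 h2.1 h3, Nat.beq_refl] at hc
  cases hc

theorem tr_ren {G : Type} [Group G] {g : ℕ → G} {nl : ℕ} {tr iv gi : List ℕ} (hi : InvOk g nl iv)
    (h : allLt nl (fun j => decide (if tr.getD j 0 % 2 = 0 then gi.getD (tr.getD j 0 / 2) 0 = j else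
      gi.getD (tr.getD j 0 / 2) 0 < nl ∧ getL iv 0 (gi.getD (tr.getD j 0 / 2) 0) = j)) = true)
    (h' : ∀ j < nl, tr.getD j 0 / 2 < gi.length) : ∀ j < nl, g j = lv (renG g (sing gi)) (tr.getD j 0) := fun j hj => by
  have e : ∀ k < gi.length, renG g (sing gi) k = g (gi.getD k 0) := fun k hk => by
    rw [renG, getL_eq_getD, List.getD_eq_getElem _ _ hk, List.getD_eq_getElem _ _ (by simpa [sing] using hk)]
    simp [sing]
  rw [tr_of_inv hi h j hj, lv, lv, e _ (h' j hj)]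

end Cfsg.Agent.Known
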