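import Cfsg.Agent.Known.PTail
import Cfsg.Agent.Known.Pack

/-! Tails on a presentation, continued (helper25): free alphabets for subgroup models (`dbl`), derived relators
(`derB`, `rels_der`, `TC.ders`). -/

set_option autoImplicit false

namespace Cfsg.Agent.Known

open Cfsg.Agent.Comp Subgroup
open Cfsg.Agent.Spor hiding allL
open scoped IsMulCommutative

def dbl (f : List ℕ → List ℕ) (n : ℕ) (W : List (List ℕ)) : List (List ℕ) :=
  (List.range (2 * n)).map fun x => if x % 2 = 0 then W.getD (x / 2) [] else f (W.getD (x / 2) [])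

theorem dbl_getD {f : List ℕ → List ℕ} {n x : ℕ} {W : List (List ℕ)} (h : x < 2 * n) :
    (dbl f n W).getD x [] = if x % 2 = 0 then W.getD (x / 2) [] else f (W.getD (x / 2) []) := by
  rw [dbl, List.getD_eq_getElem _ _ (by simpa using h), List.getElem_map, List.getElem_range]

theorem hom_dbl {G K : Type} [Group G] [Group K] {g0 : ℕ → G} {y : ℕ → K} {ι : K →* G} {n : ℕ} {W : List (List ℕ)}
    (h : ∀ i < n, ι (y i) = ev (lv g0) (W.getD i [])) :
    ∀ x < 2 * n, ι (lv y x) = ev (lv g0) ((dbl invF n W).getD x []) := fun x hx => by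
  rw [dbl_getD hx, lv]
  split_ifs
  · exact h _ (by omega)
  · rw [map_inv, h _ (by omega), ev_invF]

theorem rels_dbl {K : Type} [Group K] {g : ℕ → K} {nl n : ℕ} {iv : List ℕ} (hi : InvOk g nl iv) {U rs : List (List ℕ)}
    (hU : chkLet (List.range nl) U = true) (hl : chkLet (List.range (2 * n)) rs = true)
    (h : ∀ r ∈ rs.map (renW (dbl (invW iv) n U)), ev g r = 1) : ∀ r ∈ rs, ev (lv (renG g U)) r = 1 := fun r hr => by
  rw [← h _ (List.mem_map_of_mem hr), ← ev_renG]
  refine ev_congr fun x hx => ?_
  rw [renG, getL_eq_getD, dbl_getD (lt_of_chkLet hl r hr x hx), lv, renG, getL_eq_getD]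
  split_ifs
  · rfl
  · exact (hi.invW (getL_eq_getD U [] _ ▸
      getL_prop (p := fun w => ∀ x ∈ w, x < nl) U [] _ (by simp) (lt_of_chkLet hU))).symm

/-- decoder of packed derivations. -/
def decD (l : List (List ℕ)) : List (List (List ℕ × ℕ × Bool)) := l.map fun c => c.map fun x =>
  (decL (Nat.shiftRight x 16), Nat.shiftRight (Nat.land x 65535) 1, Nat.beq (Nat.land x 1) 1)

def pushE (x : ℕ) (st : List ℕ) (k : List ℕ → Bool) : Bool :=
  List.rec (motive := fun _ => Bool) (k [x]) (fun y t _ => bif' (Nat.beq y (Nat.xor x 1)) (k t) (k (x :: y :: t))) st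

def runF (f : ℕ → ℕ) (v : List ℕ) : List ℕ → (List ℕ → Bool) → Bool :=
  List.rec (motive := fun _ => List ℕ → (List ℕ → Bool) → Bool) (fun st k => k st)
    (fun x _ ih st k => force (f x) fun y => pushE y st fun s => ih s k) v

def revE {α : Type} (v : List α) : List α :=
  List.rec (motive := fun _ => List α → List α) (fun acc => acc) (fun x _ ih acc => ih (x :: acc)) v []

def runC (bs : List (List ℕ)) (c : List (List ℕ × ℕ × Bool)) : List ℕ → Bool :=
  List.rec (motive := fun _ => List ℕ → Bool) (fun st => List.rec (motive := fun _ => Bool) true (fun _ _ _ => false) st)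
    (fun p _ ih st => runF (fun x => x) (revE p.1) st fun s => bif' p.2.2
      (runF (fun x => x) (revE (nthL [] bs p.2.1)) s fun s => runF (fun x => Nat.xor x 1) p.1 s ih)
      (runF (fun x => Nat.xor x 1) (nthL [] bs p.2.1) s fun s => runF (fun x => Nat.xor x 1) p.1 s ih)) c

/-- fast test of `fr (prodF bs c ++ invF r) = []`. -/
def eqF (bs : List (List ℕ)) (c : List (List ℕ × ℕ × Bool)) (r : List ℕ) : Bool :=
  runF (fun x => Nat.xor x 1) r [] (runC bs (revE c))

theorem xor_one (x : ℕ) : Nat.xor x 1 = nx x := by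
  unfold nx
  split_ifs with h
  · exact Nat.xor_one_of_even (Nat.even_iff.2 h)
  · exact Nat.xor_one_of_odd (Nat.odd_iff.2 (by omega))

theorem revE_eq {α : Type} (v : List α) : revE v = v.reverse := by
  suffices ∀ acc, (List.rec (motive := fun _ => List α → List α) (fun acc => acc) (fun x _ ih acc => ih (x :: acc)) v acc :
    List α) = v.reverse ++ acc from (this []).trans (List.append_nil _)
  induction v with
  | nil => intro; rfl
  | cons x v ih => intro acc; rw [List.reverse_cons, List.append_assoc]; exact ih _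

theorem runF_eq (f : ℕ → ℕ) (v : List ℕ) (k : List ℕ → Bool) : ∀ w, runF f v (fr w) k = k (fr ((v.map f).reverse ++ w)) := by
  induction v with
  | nil => intro; rfl
  | cons x v ih =>
    intro w
    show force (f x) (fun y => pushE y (fr w) fun s => runF f v s k) = _
    have e : fr (f x :: w) = List.rec (motive := fun _ => List ℕ) [f x]
      (fun y t _ => bif' (Nat.beq y (nx (f x))) t (f x :: y :: t)) (fr w) := rfl
    rw [force_eq, List.map_cons, List.reverse_cons, List.append_assoc, ← ih, List.singleton_append, e, pushE, xor_one]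
    cases fr w with
    | nil => rfl
    | cons y t => cases h : Nat.beq y (nx (f x)) <;> simp [h]

theorem eqF_spec {bs : List (List ℕ)} {c : List (List ℕ × ℕ × Bool)} {r : List ℕ} (h : eqF bs c r = true) :
    fr (prodF bs c ++ invF r) = [] := by
  have key : ∀ (c : List (List ℕ × ℕ × Bool)) w, runC bs c (fr w) = true → fr (prodF bs c.reverse ++ w) = [] := by
    intro c
    induction c with
    | nil => intro w h; show fr w = []; cases h' : fr w; · rfl
             rw [h'] at h; cases h
    | cons p c ih =>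
      intro w h
      have e : prodF bs (p :: c).reverse ++ w = prodF bs c.reverse ++ (invF p.1 ++
        ((bif p.2.2 then nthL [] bs p.2.1 else invF (nthL [] bs p.2.1)) ++ (p.1 ++ w))) := by simp [prodF]
      rw [e]
      refine ih _ ?_
      change runF _ _ _ (fun s => bif' _ (runF _ _ s fun s => runF _ _ s (runC bs c))
        (runF _ _ s fun s => runF _ _ s (runC bs c))) = true at h
      rw [funext xor_one] at h
      cases h' : p.2.2 <;> simpa [runF_eq, h', revE_eq, invF] using h
  have := runF_eq (fun x => Nat.xor x 1) r (runC bs (revE c)) []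
  rw [show fr [] = [] from rfl, ← eqF, h, funext xor_one] at this
  simpa [revE_eq, invF] using key _ _ this.symm

theorem TC.idents' {Γ G : Type} [Group Γ] [Group G] {σ : Γ →* G} {g : ℕ → G} {bs : List (List ℕ)} {m : ℕ} {a : ℕ → Γ}
    {t : ℕ → center Γ} (T : TC σ g bs m a t) (cs : List (List (List ℕ × ℕ × Bool)))
    (h : allL cs (fun c => eqF bs c []) = true) : ∀ L ∈ idL cs, sp t L = 1 :=
  List.forall_mem_map.2 fun c hc => T.ident c (by simpa [invF] using eqF_spec (allL_iff.1 h c hc))

def derB (bs : List (List ℕ)) (n0 : ℕ) (ds : List (List (List ℕ × ℕ × Bool))) : Bool :=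
  allLt ds.length fun i => band (allL (nthL [] ds i) fun p => Nat.blt p.2.1 (n0 + i))
    (eqF bs (nthL [] ds i) (nthL [] bs (n0 + i)))

def derL (n0 : ℕ) (ds : List (List (List ℕ × ℕ × Bool))) : List (List (ℕ × ℤ)) :=
  idL ((List.range ds.length).map fun i => nthL [] ds i ++ [([], n0 + i, false)])

theorem rels_der {G : Type} [Group G] {g0 : ℕ → G} {b0 b1 : List (List ℕ)} {ds : List (List (List ℕ × ℕ × Bool))}
    (h0 : ∀ r ∈ b0, ev (lv g0) r = 1) {n0 : ℕ} (hl : b0.length = n0) (hl' : b1.length = ds.length)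
    (h : derB (b0 ++ b1) n0 ds = true) : ∀ r ∈ b0 ++ b1, ev (lv g0) r = 1 := by
  simp only [derB, allLt_iff, band_eq, Bool.and_eq_true, allL_iff, nblt] at h
  have key : ∀ j, ev (lv g0) (nthL [] (b0 ++ b1) j) = 1 := fun j => by
    induction j using Nat.strong_induction_on with
    | _ j ih =>
    by_cases h1 : j < n0
    · rw [nthL_eq, List.getD_append _ _ _ _ (hl ▸ h1), List.getD_eq_getElem _ _ (hl ▸ h1)]
      exact h0 _ (List.getElem_mem _)
    by_cases h2 : j < n0 + ds.length
    · obtain ⟨i, rfl⟩ := Nat.exists_eq_add_of_le (not_lt.1 h1)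
      obtain ⟨h3, h4⟩ := h i (by omega)
      have h5 : ev (lv g0) (prodF (b0 ++ b1) (nthL [] ds i)) = 1 := by
        generalize nthL [] ds i = c at h3
        induction c with
        | nil => rfl
        | cons p c ihc =>
          rw [prodF, List.flatMap_cons, ev_append, ← prodF, ihc fun q hq => h3 q (List.mem_cons_of_mem _ hq), ev_append,
            ev_append, ev_invF]
          have := ih _ (h3 p List.mem_cons_self)
          cases p.2.2 <;> simp [ev_invF, this]
      have := congrArg (ev (lv g0)) (eqF_spec h4)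
      rwa [ev_fr, ev_append, h5, ev_invF, mul_one, ev_nil, inv_eq_one] at this
    · rw [nthL_eq, List.getD_eq_default _ _ (by simp; omega)]; rfl
  intro r hr
  obtain ⟨j, hj, rfl⟩ := List.getElem_of_mem hr
  rw [← List.getD_eq_getElem _ [] hj, ← nthL_eq]; exact key j

theorem TC.ders {Γ G : Type} [Group Γ] [Group G] {σ : Γ →* G} {g : ℕ → G} {bs : List (List ℕ)} {m : ℕ} {a : ℕ → Γ}
    {t : ℕ → center Γ} (T : TC σ g bs m a t) {n0 : ℕ} {ds : List (List (List ℕ × ℕ × Bool))}
    (h : derB bs n0 ds = true) : ∀ L ∈ derL n0 ds, sp t L = 1 := by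
  simp only [derB, allLt_iff, band_eq, Bool.and_eq_true] at h
  refine List.forall_mem_map.2 (List.forall_mem_map.2 fun i hi => T.ident _ ?_)
  refine Eq.trans (congrArg fr ?_) (eqF_spec (h i (List.mem_range.1 hi)).2)
  simp [prodF, invF]

end Cfsg.Agent.Known
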