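import Cfsg.Agent.Known.PTail2

/-! Tails on a presentation, continued (helper25): staged linear algebra on the tails (`sp_stage`). -/

set_option autoImplicit false

namespace Cfsg.Agent.Known

open Cfsg.Agent.Comp

def stB (N : ℕ) (Ls : List (List (ℕ × ℤ))) (rs : List (List (ℕ × ℤ) × List (ℕ × ℤ))) : Bool :=
  allL rs fun r => zeroL N (scl (-1) r.1 ++ comb Ls r.2)

theorem sp_stage {A : Type*} [CommGroup A] {t : ℕ → A} {Ls : List (List (ℕ × ℤ))} (h : ∀ L ∈ Ls, sp t L = 1) {N : ℕ}
    {rs : List (List (ℕ × ℤ) × List (ℕ × ℤ))} (hc : stB N Ls rs = true) : ∀ L ∈ rs.map Prod.fst, sp t L = 1 :=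
  List.forall_mem_map.2 fun r hr => by
    have h1 := sp_zero t (allL_iff.1 hc r hr)
    have h2 : (fun i => sp t (nthL [] Ls i)) = fun _ => 1 := funext fun i => by
      rcases nthL_mem_or [] Ls i with e | e
      · exact h _ e
      · rw [e]; rfl
    rwa [sp_append, sp_scl, sp_comb, h2, show sp (fun _ => (1 : A)) r.2 = 1 by simp [sp], mul_one, zpow_neg_one,
      inv_eq_one] at h1

end Cfsg.Agent.Known
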