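import Cfsg.Agent.Known.Bridge
import Cfsg.Agent.Known.P.Sz8

/-! Pointwise tables and a base for `Sz8P.G` in degree 65 (generated certificate, helper25): letters `y`,
action `act`, `hy`, `base`, `mdl`. -/

set_option maxRecDepth 100000
set_option exponentiation.threshold 100000

namespace Cfsg.Agent.Known.Sz8T

open Cfsg.Agent.Comp

noncomputable def t0 : ℕ := (nat_lit 0x163048a172a4c88e202860f1a2c4a650892274a8d0be80e9e3f7aedcae60a962f5aad4b670c9a376acd89e4068e1f3a6cc8610082070a0c080)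

theorem h0 : TabOf 65 7 t0 (Spor.ev (Spor.PP Sz8P.nets) [0])⁻¹ :=
  tabOf_of_chk (L := 7) Sz8P.ok _ (by decide +kernel)

noncomputable def t1 : ℕ := (nat_lit 0x2748a11a544990972860995245889f3880d9d3478caf58c15ad54b948f184058d14384bf7901dbd74f9cb768e19b564d988708201850418080)

theorem h1 : TabOf 65 7 t1 (Spor.ev (Spor.PP Sz8P.nets) [1])⁻¹ :=
  tabOf_of_chk (L := 7) Sz8P.ok _ (by decide +kernel)

noncomputable def t2 : ℕ := (nat_lit 0x2744912a8428d33568c9bb666c5c030c200840a1c11130589922e54a3e76e603d78e9fb052ad72f54b169a3e74e194078d8c1a3c50b1c40480)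

theorem h2 : TabOf 65 7 t2 (Spor.ev (Spor.PP Sz8P.nets) [2])⁻¹ :=
  tabOf_of_chk (L := 7) Sz8P.ok _ (by decide +kernel)

noncomputable def t3 : ℕ := (nat_lit 0x1d3280e1b3e68f316ad1c3766d991828548922c4cbbc80e5ebe74fdd8b1e2870d124062746991214a914020c0c38808140ae54bd5ac60a5680)

theorem h3 : TabOf 65 7 t3 (Spor.ev (Spor.PP Sz8P.nets) [3])⁻¹ :=
  tabOf_of_chk (L := 7) Sz8P.ok _ (by decide +kernel)

noncomputable def t4 : ℕ := (nat_lit 0x164b95181cd469d565dd1a62fd98f12f8a256ef520c36896292698f202485c044ed013c6c2842d467c00760edca80c59795202c19c0a66011)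

theorem h4 : TabOf 65 7 t4 (Spor.ev (Spor.PP Sz8P.nets) [4])⁻¹ :=
  tabOf_of_chk (L := 7) Sz8P.ok _ (by decide +kernel)

noncomputable def tabs : List ℕ := [t0, t1, t2, t3, t4]

def wds : List (List ℕ) := [[0],[1],[2],[3],[4]]

noncomputable scoped instance inst : MulAction Sz8P.G ℕ := actOf Sz8P.φ

scoped instance fin : Finite Sz8P.G := Nat.finite_of_card_ne_zero (by rw [Sz8P.card]; decide)

noncomputable def y (i : ℕ) : Sz8P.G := (Spor.ev Sz8P.g (nthL [0] wds i))⁻¹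

noncomputable def act (i : ℕ) : ℕ → ℕ := get2 7 (nthL t0 tabs i)

theorem hy : ActBy y (PtN 65) act :=
  actBy_tabs Sz8P.rep (.cons h0 (.cons h0 (.cons h1 (.cons h2 (.cons h3 (.cons h4 (.nil))))))) (by decide +kernel)

theorem f0 : FixLe Sz8P.G (PtN 65) [0] 65 :=
  FixLe.nil.stepW (isCanon_PtN _) hy 0 65 [[4],[2]] 65 ⟨_, rfl, by decide⟩ (by decide +kernel)

theorem f1 : FixLe Sz8P.G (PtN 65) [1,0] 4160 :=
  f0.stepW (isCanon_PtN _) hy 1 64 [[2],[0]] 65 ⟨_, rfl, by decide⟩ (by decide +kernel)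

theorem f2 : FixLe Sz8P.G (PtN 65) [2,1,0] 29120 :=
  f1.stepW (isCanon_PtN _) hy 2 7 [[0]] 65 ⟨_, rfl, by decide⟩ (by decide +kernel)

theorem base : IsBase Sz8P.G (PtN 65) [2,1,0] := f2.isBase Sz8P.card le_rfl

theorem mdl : Mdl Sz8P.φ 65 5 29120 y act [2,1,0] :=
  mdl_of_tabs Sz8P.rep hy base (by decide) Sz8P.card (by decide)

end Cfsg.Agent.Known.Sz8T
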