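import Cfsg.Agent.Known.PTail

/-! Covers of a subgroup of index 2 (helper25): `mdvd_twist` (the generators are involutions that invert `z`),
monomial model `mN` with `chkVoltN`. -/

set_option autoImplicit false

namespace Cfsg.Agent.Known

open Cfsg.Agent.Spor Subgroup Equiv

/-- a word of even length in the letters `x i * x 0`. -/
def prW : List ℕ → List ℕ
  | a :: b :: w => (2 * a + 1) :: 2 * b :: prW w
  | _ => []

theorem ev_prW {X Y : Type*} [Group X] [Group Y] (ι : X →* Y) {x : ℕ → Y} {u : ℕ → X} {nl : ℕ}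
    (hsq : ∀ i < nl, x i * x i = 1) (hu : ∀ i < nl, ι (u i) = x i * x 0) :
    ∀ w : List ℕ, (∀ a ∈ w, a < nl) → w.length % 2 = 0 → ι (ev (lv u) (prW w)) = ev x w
  | [], _, _ => map_one ι
  | [_], _, h => absurd h (by simp)
  | a :: b :: w, h, h' => by
    have ha := h a (by simp)
    have e1 : lv u (2 * a + 1) = (u a)⁻¹ := by rw [lv, if_neg (by omega), show (2 * a + 1) / 2 = a by omega]
    have e2 : lv u (2 * b) = u b := by rw [lv, if_pos (by omega), show 2 * b / 2 = b by omega]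
    rw [prW, ev_cons, ev_cons, map_mul, map_mul, ev_prW ι hsq hu w (fun c hc => h c (by simp [hc]))
      (by simp only [List.length_cons] at h'; omega), e1, e2, map_inv, hu a ha, hu b (h b (by simp)), ev_cons, ev_cons,
      mul_inv_rev, ← eq_inv_of_mul_eq_one_left (hsq a ha)]
    group

theorem ev_lv_comm {A : Type*} [CommGroup A] (t : ℕ → A) (w : List ℕ) : ev (lv t) w = sp t (expo w) := by
  induction w with
  | nil => rfl
  | cons x w ih =>
    rw [ev_cons, ih, show expo (x :: w) = _ :: expo w from rfl, sp_cons, mul_comm, lv]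
    split_ifs with h <;> simp only [h, if_true, if_false, zpow_one, zpow_neg_one]

theorem mdvd_twist_aux {G Y : Type} [Group G] [Group Y] {g : ℕ → G} {nl : ℕ} {rels : List (List ℕ)}
    (hL : Lifts g nl rels) (top : genL g (List.range nl) = ⊤) {ε : G →* ℤˣ} (hε : ∀ i < nl, ε (g i) = -1)
    (π : Y →* G) (x : ℕ → Y) (ζ : Y) (hπ : ∀ i < nl, π (x i) = g i) (hζ : π ζ = 1)
    (gen : ∀ S : Subgroup Y, ζ ∈ S → (∀ i < nl, x i ∈ S) → ∀ y, y ∈ S)
    (hz : ∀ i < nl, x i * ζ * (x i)⁻¹ = ζ⁻¹) (hsq : ∀ i < nl, x i * x i = 1) (hr : ∀ r ∈ rels, ev x r ∈ zpowers ζ)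
    (l : List (List ℕ × ℕ × ℤ)) (hl : ∀ p ∈ l, ev x p.1 = ζ ^ p.2.1 ∧ (∀ a ∈ p.1, a < nl) ∧ p.1.length % 2 = 0)
    (h0 : 0 < nl) (h1 : zeroL nl (l.flatMap fun p => scl p.2.2 (expo (prW p.1))) = true)
    (h2 : (l.map fun p => (p.2.1 : ℤ) * p.2.2).sum = 1) : MDvd ε.ker (orderOf ζ) := by
  have c1 : ∀ y, y * ζ * y⁻¹ = ζ ^ (ε (π y) : ℤ) := gen
    { carrier := {y | y * ζ * y⁻¹ = ζ ^ (ε (π y) : ℤ)}
      one_mem' := by simp
      mul_mem' := fun {a b} ha hb => by
        have ha : a * ζ * a⁻¹ = _ := ha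
        have hb : b * ζ * b⁻¹ = _ := hb
        show _ = _
        rw [map_mul, map_mul, Units.val_mul, zpow_mul, ← ha, conj_zpow, ← hb]; group
      inv_mem' := fun {a} ha => by
        have ha : a * ζ * a⁻¹ = _ := ha
        show _ = _
        rw [map_inv, map_inv, Int.units_inv_eq_self]
        have e : ζ = (a * ζ * a⁻¹) ^ (ε (π a) : ℤ) := by
          rw [ha, ← zpow_mul, ← Units.val_mul, Int.units_mul_self, Units.val_one, zpow_one]
        rw [conj_zpow] at e
        conv_lhs => rw [e]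
        group }
    (by show _ = _; simp [hζ]) fun i hi => by show _ = _; rw [hπ i hi, hε i hi, hz i hi]; simp
  haveI : (zpowers ζ).Normal := ⟨by
    rintro _ ⟨k, rfl⟩ y
    rw [← conj_zpow, c1]; exact zpow_mem (zpow_mem (mem_zpowers ζ) _) _⟩
  obtain ⟨ψ, hψ⟩ := hL _ (fun i => QuotientGroup.mk' (zpowers ζ) (x i)) fun r h => by
    rw [← map_ev, QuotientGroup.mk'_apply, QuotientGroup.eq_one_iff]; exact hr r h
  have c2 : ∀ y, ψ (π y) = QuotientGroup.mk' (zpowers ζ) y := gen ((ψ.comp π).eqLocus _)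
    (by show ψ (π ζ) = _; rw [hζ, map_one]; exact ((QuotientGroup.eq_one_iff _).2 (mem_zpowers ζ)).symm)
    fun i hi => by show ψ (π _) = _; rw [hπ i hi, hψ i hi]
  have c3 : Function.Surjective π := by
    rw [← MonoidHom.range_eq_top, eq_top_iff, ← top]
    exact genL_le fun i hi => ⟨_, hπ i (List.mem_range.1 hi)⟩
  let z : ε.ker.comap π := ⟨ζ, by simp [hζ]⟩
  let u : ℕ → ε.ker.comap π := fun i => if h : i < nl then ⟨x i * x 0, by simp [hπ, hε, h, h0]⟩ else 1
  refine MDvd.of_elt (ξ := π.subgroupComap ε.ker) ⟨π.subgroupComap_surjective_of_surjective _ c3, fun v hv => ?_⟩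
    (z := z) ⟨Subtype.ext hζ, ?_⟩ (by rw [← orderOf_coe])
  · have h3 := c2 v
    rw [show π v = 1 from congrArg Subtype.val hv, map_one, eq_comm, QuotientGroup.mk'_apply,
      QuotientGroup.eq_one_iff] at h3
    obtain ⟨k, h3⟩ := h3
    refine mem_center_iff.2 fun w => Subtype.ext ?_
    have h4 := c1 w
    rw [show ε (π w) = 1 from w.2, Units.val_one, zpow_one, mul_inv_eq_iff_eq_mul] at h4
    show w.1 * v.1 = v.1 * w.1
    rw [← h3]; exact Commute.zpow_right h4 k
  · have h3 := sp_zero (fun i => Abelianization.of (u i)) h1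
    have h4 : sp (fun i => Abelianization.of (u i)) (l.flatMap fun p => scl p.2.2 (expo (prW p.1))) =
        Abelianization.of z ^ (l.map fun p => (p.2.1 : ℤ) * p.2.2).sum := by
      clear h1 h2 h3
      induction l with
      | nil => simp [sp]
      | cons p l ih =>
        obtain ⟨k1, k2, k3⟩ := hl p List.mem_cons_self
        have e : ev (lv u) (prW p.1) = z ^ p.2.1 := Subtype.ext
          ((ev_prW (Subgroup.subtype _) hsq (fun i hi => by simp only [u, dif_pos hi]; rfl) _ k2 k3).trans k1)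
        rw [List.flatMap_cons, sp_append, ih fun q hq => hl q (List.mem_cons_of_mem _ hq), sp_scl, ← ev_lv_comm,
          ← funext (map_lv u Abelianization.of), ← map_ev, e, map_pow, List.map_cons, List.sum_cons, zpow_add, zpow_mul,
          zpow_natCast]
    rwa [h4, h2, zpow_one, ← MonoidHom.mem_ker, Abelianization.ker_of] at h3

theorem mdvd_twist {G M : Type} [Group G] [Group M] {g : ℕ → G} {nl : ℕ} {rels : List (List ℕ)}
    (hL : Lifts g nl rels) (hg : ∀ r ∈ rels, ev g r = 1) (top : genL g (List.range nl) = ⊤) {ε : G →* ℤˣ}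
    (hε : ∀ i < nl, ε (g i) = -1) {m : ℕ → M} {z : M} (hz : ∀ i < nl, m i * z * (m i)⁻¹ = z⁻¹) {es : List ℕ}
    (hr : List.Forall₂ (fun r e => ev m r = z ^ e) rels es) (l : List (List ℕ × ℕ × ℤ))
    (h : chkLet (List.range nl) rels = true ∧ (∀ i < nl, ([i, i], 0) ∈ rels.zip es) ∧
      (∀ p ∈ l, (p.1, p.2.1) ∈ rels.zip es ∧ p.1.length % 2 = 0) ∧ 0 < nl ∧
      zeroL nl (l.flatMap fun p => scl p.2.2 (expo (prW p.1))) = true ∧ (l.map fun p => (p.2.1 : ℤ) * p.2.2).sum = 1) :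
    MDvd ε.ker (orderOf z) := by
  obtain ⟨h1, h2, h3, h4, h5, h6⟩ := h
  let Y : Subgroup (G × M) := closure (insert (1, z) ((fun i => (g i, m i)) '' Set.Iio nl))
  let x : ℕ → Y := fun i => if h : i < nl then ⟨_, subset_closure (Or.inr ⟨i, h, rfl⟩)⟩ else 1
  let ζ : Y := ⟨_, subset_closure (Or.inl rfl)⟩
  have hx : ∀ i < nl, (x i : G × M) = (g i, m i) := fun i hi => by simp only [x, dif_pos hi]
  have key : ∀ p ∈ rels.zip es, ev x p.1 = ζ ^ p.2 := fun p hp => by
    have hp1 := (List.of_mem_zip hp).1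
    refine Subtype.ext ((map_ev Y.subtype x p.1).trans ?_)
    rw [ev_congr (g := fun i => Y.subtype (x i)) (g' := fun i => (g i, m i)) fun i hi => hx i (lt_of_chkLet h1 _ hp1 i hi)]
    exact Prod.ext ((map_ev (MonoidHom.fst G M) _ _).trans ((hg _ hp1).trans (one_pow _).symm))
      ((map_ev (MonoidHom.snd G M) _ _).trans ((List.forall₂_iff_zip.1 hr).2 hp))
  have := mdvd_twist_aux hL top hε ((MonoidHom.fst G M).comp Y.subtype) x ζ (fun i hi => congrArg Prod.fst (hx i hi)) rfl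
    (fun S k1 k2 y => by
      have : Y ≤ S.map Y.subtype := (closure_le _).2 (by
        rintro _ (rfl | ⟨i, hi, rfl⟩)
        exacts [⟨_, k1, rfl⟩, ⟨_, k2 i hi, hx i hi⟩])
      obtain ⟨w, hw, e⟩ := this y.2
      exact (Subtype.ext e : w = y) ▸ hw)
    (fun i hi => Subtype.ext (by
      rw [coe_mul, coe_mul, coe_inv, coe_inv, hx i hi]; exact Prod.ext (by simp [ζ]) (hz i hi)))
    (fun i hi => by simpa using key _ (h2 i hi))
    (fun r h => by
      obtain ⟨e, he⟩ := forall₂_exists_right (List.forall₂_iff_zip.2 ⟨hr.length_eq, fun {a b} h => key (a, b) h⟩) h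
      rw [he]; exact pow_mem (mem_zpowers ζ) e)
    l (fun p hp => ⟨key _ (h3 p hp).1, lt_of_chkLet h1 _ (List.of_mem_zip (h3 p hp).1).1, (h3 p hp).2⟩) h4 h5 h6
  rwa [← orderOf_coe, show (ζ : G × M) = MonoidHom.inr G M z from rfl,
    orderOf_injective _ fun _ _ e => congrArg Prod.snd e] at this

/-- the letters of the twisted cover. -/
noncomputable def mN (nets : List Net) (cs : List (ℕ × ℕ)) (x : ℕ) : Perm (ℕ × ZMod 3) :=
  mM 3 nets cs x * (Equiv.refl ℕ).prodCongr (Equiv.neg _)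

theorem mN_apply (nets : List Net) (cs : List (ℕ × ℕ)) (x ω : ℕ) (t : ZMod 3) :
    mN nets cs x (ω, t) = (PP nets x ω, -t + pv 3 (getL cs (0, 0) x) ω) := rfl

/-- the voltage accumulated along a word, indexed by the end points. -/
noncomputable def voltN (nets : List Net) (cs : List (ℕ × ℕ)) (w : List ℕ) : ℕ × ℕ → ℕ × ℕ :=
  List.rec (motive := fun _ => ℕ × ℕ → ℕ × ℕ) (fun V => V) (fun x _ ih V =>
    seq (appX nets x (add3 (V.2, V.1) (getL cs (0, 0) x)).1) fun a =>
      seq (appX nets x (add3 (V.2, V.1) (getL cs (0, 0) x)).2) fun b => ih (a, b)) w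

theorem pv_swap (V : ℕ × ℕ) (ω : ℕ) : pv 3 (V.2, V.1) ω = -pv 3 V ω := by
  simp only [pv]
  cases V.1.testBit ω <;> cases V.2.testBit ω <;> decide

theorem voltN_spec {nets : List Net} {N : ℕ} (hok : netsOk N nets = true) (cs : List (ℕ × ℕ)) (w : List ℕ) :
    ∀ V ω t, ev (mN nets cs) w (ω, t) =
      (ev (PP nets) w ω, (-1) ^ w.length * (t - pv 3 V ω) + pv 3 (voltN nets cs w V) (ev (PP nets) w ω)) := by
  induction w with
  | nil => intro V ω t; simp [voltN]
  | cons x w ih =>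
    intro V ω t
    have e : voltN nets cs (x :: w) V = voltN nets cs w
        (appX nets x (add3 (V.2, V.1) (getL cs (0, 0) x)).1, appX nets x (add3 (V.2, V.1) (getL cs (0, 0) x)).2) := by
      show seq _ (fun a => seq _ fun b => voltN nets cs w (a, b)) = _
      rw [seq_eq, seq_eq]
    have e2 : pv 3 (appX nets x (add3 (V.2, V.1) (getL cs (0, 0) x)).1, appX nets x (add3 (V.2, V.1) (getL cs (0, 0) x)).2)
        (PP nets x ω) = -pv 3 V ω + pv 3 (getL cs (0, 0) x) ω := by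
      rw [← pv_swap, ← isAdd3]; simp only [pv, appX_testBit hok]
    rw [ev_cons, ev_cons, Perm.mul_apply, Perm.mul_apply, mN_apply, e, ih, e2, List.length_cons]
    congr 1; ring

/-- the relators have even length and constant voltages `0` or `1`. -/
noncomputable def chkVoltN (nets : List Net) (N : ℕ) (cs : List (ℕ × ℕ)) (l : List (List ℕ × ℕ)) : Bool :=
  allL l fun r => andB (andB (Nat.ble r.2 1) (Nat.beq (r.1.length % 2) 0))
    (andB (Nat.beq (voltN nets cs r.1 (0, 0)).1 (Nat.mul r.2 (ivl 0 N))) (Nat.beq (voltN nets cs r.1 (0, 0)).2 0))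

theorem ev_of_chkVoltN {nets : List Net} {N : ℕ} (hok : netsOk N nets = true) {cs : List (ℕ × ℕ)}
    {l : List (List ℕ × ℕ)} (h : chkVoltN nets N cs l = true) :
    ∀ r ∈ l, ev (PP nets) r.1 = 1 → ev (mN nets cs) r.1 = zM 3 N ^ r.2 := by
  intro r hr h1
  have h2 := allL_spec h r hr
  simp only [andB_eq_true, Nat.ble_eq, Nat.beq_eq] at h2
  obtain ⟨⟨h3, h7⟩, h4, h5⟩ := h2
  refine Equiv.ext fun ⟨ω, t⟩ => ?_
  rw [voltN_spec hok cs r.1 (0, 0), zM_pow, h1, pv, pv, h4, h5, (Nat.even_iff.2 h7).neg_one_pow]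
  have h6 : (ivl 0 N).testBit ω = decide (ω < N) := by rw [ivl_testBit]; simp
  generalize r.2 = e at h3
  rcases Nat.le_one_iff_eq_zero_or_eq_one.1 h3 with rfl | rfl
  · rw [show Nat.mul 0 (ivl 0 N) = 0 from Nat.zero_mul _]; simp
  · rw [show Nat.mul 1 (ivl 0 N) = ivl 0 N from Nat.one_mul _]
    by_cases hω : ω < N <;> simp [h6, hω]

theorem mN_conj {nets : List Net} {N : ℕ} (hok : netsOk N nets = true) (cs : List (ℕ × ℕ)) (i : ℕ) :
    mN nets cs i * zM 3 N * (mN nets cs i)⁻¹ = (zM 3 N)⁻¹ := by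
  rw [mul_inv_eq_iff_eq_mul, eq_inv_mul_iff_mul_eq]
  refine Equiv.ext fun ⟨ω, t⟩ => ?_
  have : PP nets i ω < N ↔ ω < N := ⟨fun h => by
    by_contra h'
    rw [PP_of_le hok i (not_lt.1 h')] at h; exact h' h, PP_lt hok i⟩
  simp only [Perm.mul_apply, zM, mN_apply, mono_apply, Perm.one_apply, this]
  congr 1; ring

end Cfsg.Agent.Known
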